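import Mathlib
import Cfsg.Prelude.Def_GeometricClasses
import Cfsg.Prelude.Def_Classical
import Cfsg.Agent.Helper43.S88OEDefs

set_option autoImplicit false

/-!
# Piece PSTOP of sub-CALL S88OE (helper43): restriction of a quadratic form to `⊤` and to `⊥`.
-/

namespace Cfsg.Agent.Helper23.S88OE

open Module Polynomial Cfsg Cfsg.Geo
open Cfsg.Agent.Helper43 Cfsg.Agent.Helper43.OrthEven Cfsg.Agent.Helper43.S88OE

section lin

variable {F : Type*} [Field F] {Va Vb : Type*} [AddCommGroup Va] [Module F Va] [AddCommGroup Vb]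
  [Module F Vb]

/-- one direction of ISO (own copy, fresh name): an isometric linear equivalence transports
nondegeneracy -/
theorem oe23_nd_of_iso (Qa : QuadraticForm F Va) (Qb : QuadraticForm F Vb) (e : Va ≃ₗ[F] Vb)
    (he : ∀ v, Qb (e v) = Qa v) (h : PolarNondeg Qa) : PolarNondeg Qb := by
  intro v hv
  have h0 : e.symm v = 0 := by
    apply h
    intro w
    have := hv (e w)
    rw [QuadraticMap.polar] at this ⊢
    have h1 : Qa (e.symm v + w) = Qb (v + e w) := by
      rw [← he]; simp
    have h2 : Qa (e.symm v) = Qb v := by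
      rw [← he]; simp
    rw [h1, h2, ← he w]
    exact this
  simpa using congrArg e h0

/-- one direction of ISO (own copy, fresh name): an isometric linear equivalence transports
totally singular subspaces -/
theorem oe23_ts_of_iso (Qa : QuadraticForm F Va) (Qb : QuadraticForm F Vb) (e : Va ≃ₗ[F] Vb)
    (he : ∀ v, Qb (e v) = Qa v) (d : ℕ) (h : HasTS Qa d) : HasTS Qb d :=
  hasTS_equiv Qb (fun v => Qa v) e he h

/-- PSTOP [S] (uses ISO): the restriction to `⊤` and to `⊥`. -/
theorem oe_top_bot (Qa : QuadraticForm F Va) :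
    (PolarNondeg (Qa.comp (⊤ : Submodule F Va).subtype) ↔ PolarNondeg Qa) ∧
      (∀ d, HasTS (Qa.comp (⊤ : Submodule F Va).subtype) d ↔ HasTS Qa d) ∧
      PolarNondeg (Qa.comp (⊥ : Submodule F Va).subtype) ∧
      HasTS (Qa.comp (⊥ : Submodule F Va).subtype) 0 := by
  have he : ∀ v : (⊤ : Submodule F Va),
      Qa ((Submodule.topEquiv : (⊤ : Submodule F Va) ≃ₗ[F] Va) v) =
        (Qa.comp (⊤ : Submodule F Va).subtype) v := fun v => rfl
  have he' : ∀ v : Va,
      (Qa.comp (⊤ : Submodule F Va).subtype)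
        ((Submodule.topEquiv : (⊤ : Submodule F Va) ≃ₗ[F] Va).symm v) = Qa v := fun v => rfl
  refine ⟨⟨oe23_nd_of_iso _ _ Submodule.topEquiv he, oe23_nd_of_iso _ _ Submodule.topEquiv.symm he'⟩,
    fun d => ⟨oe23_ts_of_iso _ _ Submodule.topEquiv he d,
      oe23_ts_of_iso _ _ Submodule.topEquiv.symm he' d⟩, ?_, ?_⟩
  · intro v _
    exact Subsingleton.elim _ _
  · exact ⟨⊥, Nat.zero_le _, fun u _ => by
      have : u = 0 := Subsingleton.elim _ _
      rw [this, map_zero]⟩

end lin

end Cfsg.Agent.Helper23.S88OE
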