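/-
helper23: Baer's trick for groups of odd order and class at most two, and the generalised
Thompson `P × Q` lemma for odd primes (the acting `p`-group only normalizes the `p'`-group).
Everything lives in `Cfsg.Agent.Helper23`.
-/
import Mathlib
import Cfsg.Agent.Helper24.Coprime
import Cfsg.Agent.Helper35.Coprime

set_option autoImplicit false

namespace Cfsg.Agent.Helper23

open Subgroup
open scoped commutatorElement

section BaerDef

/-- Hypotheses for the Baer trick on a group `R`: commutators are central and `k`-th powers are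
square roots of commutators. -/
structure BaerHyp (R : Type*) [Group R] (k : ℕ) : Prop where
  central : ∀ x y z : R, ⁅x, y⁆ * z = z * ⁅x, y⁆
  sqrt : ∀ x y : R, ⁅x, y⁆ ^ (2 * k) = ⁅x, y⁆

/-- The Baer group: the underlying set of `R` with `x ∘ y = x * y * ⁅y, x⁆ ^ k`. -/
def Baer (R : Type*) [Group R] {k : ℕ} (_h : BaerHyp R k) : Type _ := R

variable {R : Type*} [Group R] {k : ℕ} (h : BaerHyp R k)

/-- The identity map into the Baer group. -/
def Baer.mk (x : R) : Baer R h := x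

/-- The identity map out of the Baer group. -/
def Baer.val (x : Baer R h) : R := x

theorem Baer.val_mk (x : R) : Baer.val h (Baer.mk h x) = x := rfl

theorem Baer.mk_val (x : Baer R h) : Baer.mk h (Baer.val h x) = x := rfl

theorem Baer.ext {x y : Baer R h} (hxy : Baer.val h x = Baer.val h y) : x = y := hxy

include h in
theorem BaerHyp.commutator_mul_left (x y z : R) : ⁅x * y, z⁆ = ⁅x, z⁆ * ⁅y, z⁆ := by
  have h1 := h.central y z x
  have h2 : ⁅x * y, z⁆ = x * ⁅y, z⁆ * x⁻¹ * ⁅x, z⁆ := by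
    simp only [commutatorElement_def]; group
  rw [h2, ← h1, mul_assoc ⁅y, z⁆ x x⁻¹, mul_inv_cancel, mul_one]
  exact (h.central x z _).symm

include h in
theorem BaerHyp.commutator_mul_right (x y z : R) : ⁅x, y * z⁆ = ⁅x, y⁆ * ⁅x, z⁆ := by
  have h1 := h.central x z y
  have h2 : ⁅x, y * z⁆ = ⁅x, y⁆ * (y * ⁅x, z⁆ * y⁻¹) := by
    simp only [commutatorElement_def]; group
  rw [h2, ← h1, mul_assoc ⁅x, z⁆ y y⁻¹, mul_inv_cancel, mul_one]

include h in
theorem BaerHyp.central_pow (x y z : R) (n : ℕ) : ⁅x, y⁆ ^ n * z = z * ⁅x, y⁆ ^ n :=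
  ((show Commute ⁅x, y⁆ z from h.central x y z).pow_left n).eq

include h in
theorem BaerHyp.commutator_central_left (x y z w : R) (n : ℕ) :
    ⁅⁅x, y⁆ ^ n * z, w⁆ = ⁅z, w⁆ := by
  rw [h.commutator_mul_left]
  have : ⁅⁅x, y⁆ ^ n, w⁆ = 1 :=
    commutatorElement_eq_one_iff_commute.mpr (h.central_pow x y w n)
  rw [this, one_mul]

include h in
theorem BaerHyp.commutator_central_right (x y z w : R) (n : ℕ) :
    ⁅w, z * ⁅x, y⁆ ^ n⁆ = ⁅w, z⁆ := by
  rw [h.commutator_mul_right]
  have : ⁅w, ⁅x, y⁆ ^ n⁆ = 1 :=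
    commutatorElement_eq_one_iff_commute.mpr (Commute.symm (h.central_pow x y w n))
  rw [this, mul_one]

include h in
theorem BaerHyp.commutator_mul_pow (x y z w : R) (n : ℕ) :
    (⁅x, y⁆ * ⁅z, w⁆) ^ n = ⁅x, y⁆ ^ n * ⁅z, w⁆ ^ n :=
  (show Commute ⁅x, y⁆ ⁅z, w⁆ from h.central x y _).mul_pow n

instance Baer.instCommGroup : CommGroup (Baer R h) where
  mul x y := Baer.mk h (Baer.val h x * Baer.val h y * ⁅Baer.val h y, Baer.val h x⁆ ^ k)
  one := Baer.mk h 1
  inv x := Baer.mk h (Baer.val h x)⁻¹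
  mul_assoc x y z := by
    show Baer.val h x * Baer.val h y * ⁅Baer.val h y, Baer.val h x⁆ ^ k * Baer.val h z *
        ⁅Baer.val h z, Baer.val h x * Baer.val h y * ⁅Baer.val h y, Baer.val h x⁆ ^ k⁆ ^ k =
      Baer.val h x * (Baer.val h y * Baer.val h z * ⁅Baer.val h z, Baer.val h y⁆ ^ k) *
        ⁅Baer.val h y * Baer.val h z * ⁅Baer.val h z, Baer.val h y⁆ ^ k, Baer.val h x⁆ ^ k
    generalize Baer.val h x = a
    generalize Baer.val h y = b
    generalize Baer.val h z = c
    rw [h.commutator_central_right, h.commutator_mul_right, h.commutator_mul_pow]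
    have e0 : b * c * ⁅c, b⁆ ^ k = ⁅c, b⁆ ^ k * (b * c) := (h.central_pow c b (b * c) k).symm
    rw [e0, h.commutator_central_left, h.commutator_mul_left, h.commutator_mul_pow]
    have e1 : ⁅b, a⁆ ^ k * c = c * ⁅b, a⁆ ^ k := h.central_pow b a c k
    have e2 : ⁅c, b⁆ ^ k * (b * c) = b * c * ⁅c, b⁆ ^ k := h.central_pow c b (b * c) k
    have e3 : ⁅c, b⁆ ^ k * (⁅b, a⁆ ^ k * ⁅c, a⁆ ^ k) = ⁅b, a⁆ ^ k * ⁅c, a⁆ ^ k * ⁅c, b⁆ ^ k :=
      h.central_pow c b _ k
    calc a * b * ⁅b, a⁆ ^ k * c * (⁅c, a⁆ ^ k * ⁅c, b⁆ ^ k)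
        = a * b * (⁅b, a⁆ ^ k * c) * (⁅c, a⁆ ^ k * ⁅c, b⁆ ^ k) := by simp only [mul_assoc]
      _ = a * b * (c * ⁅b, a⁆ ^ k) * (⁅c, a⁆ ^ k * ⁅c, b⁆ ^ k) := by rw [e1]
      _ = a * (b * c) * (⁅b, a⁆ ^ k * ⁅c, a⁆ ^ k * ⁅c, b⁆ ^ k) := by simp only [mul_assoc]
      _ = a * (b * c) * (⁅c, b⁆ ^ k * (⁅b, a⁆ ^ k * ⁅c, a⁆ ^ k)) := by rw [e3]
      _ = a * (b * c * ⁅c, b⁆ ^ k) * (⁅b, a⁆ ^ k * ⁅c, a⁆ ^ k) := by simp only [mul_assoc]
      _ = a * (⁅c, b⁆ ^ k * (b * c)) * (⁅b, a⁆ ^ k * ⁅c, a⁆ ^ k) := by rw [e2]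
  one_mul x := by
    show (1 : R) * Baer.val h x * ⁅Baer.val h x, (1 : R)⁆ ^ k = Baer.val h x
    simp
  mul_one x := by
    show Baer.val h x * (1 : R) * ⁅(1 : R), Baer.val h x⁆ ^ k = Baer.val h x
    simp
  inv_mul_cancel x := by
    show (Baer.val h x)⁻¹ * Baer.val h x * ⁅Baer.val h x, (Baer.val h x)⁻¹⁆ ^ k = (1 : R)
    have : ⁅Baer.val h x, (Baer.val h x)⁻¹⁆ = 1 := by simp [commutatorElement_def]
    rw [this]; simp
  mul_comm x y := by
    show Baer.val h x * Baer.val h y * ⁅Baer.val h y, Baer.val h x⁆ ^ k =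
      Baer.val h y * Baer.val h x * ⁅Baer.val h x, Baer.val h y⁆ ^ k
    generalize Baer.val h x = a
    generalize Baer.val h y = b
    have e1 : a * b = b * a * ⁅a, b⁆ := by
      rw [← h.central a b (b * a)]; simp only [commutatorElement_def]; group
    have e2 : ⁅a, b⁆ ^ k * ⁅a, b⁆ ^ k = ⁅a, b⁆ := by
      rw [← pow_add, ← two_mul]; exact h.sqrt a b
    have e3 : ⁅b, a⁆ = ⁅a, b⁆⁻¹ := (commutatorElement_inv a b).symm
    rw [e1, e3, inv_pow, mul_assoc]
    congr 1
    nth_rewrite 1 [← e2]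
    group

theorem Baer.val_mul (x y : Baer R h) :
    Baer.val h (x * y) = Baer.val h x * Baer.val h y * ⁅Baer.val h y, Baer.val h x⁆ ^ k := rfl

theorem Baer.val_one : Baer.val h (1 : Baer R h) = 1 := rfl

theorem Baer.val_inv (x : Baer R h) : Baer.val h x⁻¹ = (Baer.val h x)⁻¹ := rfl

/-- An automorphism of `R` is an automorphism of the Baer group. -/
def Baer.mapAut : MulAut R →* MulAut (Baer R h) where
  toFun φ :=
    { toFun := fun x => Baer.mk h (φ (Baer.val h x))
      invFun := fun x => Baer.mk h (φ.symm (Baer.val h x))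
      left_inv := fun x => by
        show φ.symm (φ (Baer.val h x)) = Baer.val h x
        simp
      right_inv := fun x => by
        show φ (φ.symm (Baer.val h x)) = Baer.val h x
        simp
      map_mul' := fun x y => by
        show φ (Baer.val h x * Baer.val h y * ⁅Baer.val h y, Baer.val h x⁆ ^ k) =
          φ (Baer.val h x) * φ (Baer.val h y) * ⁅φ (Baer.val h y), φ (Baer.val h x)⁆ ^ k
        simp [map_commutatorElement] }
  map_one' := rfl
  map_mul' _ _ := rfl

theorem Baer.val_mapAut (φ : MulAut R) (x : Baer R h) :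
    Baer.val h (Baer.mapAut h φ x) = φ (Baer.val h x) := rfl

end BaerDef

section AbelianCase

/-- The abelian case of the generalised `P × Q` lemma, for an abstract action: a `p`-group `A`
normalizing a `p'`-group `Y`, both acting on an abelian `p`-group `B`; if every fixed point of
`A` is fixed by `Y`, then `Y` acts trivially. -/
theorem abelian_gpq {Γ B : Type*} [Group Γ] [CommGroup B] [Finite B] {p : ℕ} [Fact p.Prime]
    (hB : IsPGroup p B) (ρ : Γ →* MulAut B) (A Y : Subgroup Γ) [Finite Y] (hA : IsPGroup p A)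
    (hY : (Nat.card Y).Coprime p) (hAY : A ≤ normalizer (Y : Set Γ))
    (hfix : ∀ b : B, (∀ a ∈ A, ρ a b = b) → ∀ y ∈ Y, ρ y b = b) :
    ∀ y ∈ Y, ∀ b : B, ρ y b = b := by
  classical
  let _ : Fintype ↥Y := Fintype.ofFinite _
  -- the norm map
  let N : B →* B := ∏ y : ↥Y, (ρ (y : Γ)).toMonoidHom
  have hN : ∀ b : B, N b = ∏ y : ↥Y, ρ (y : Γ) b := by
    intro b
    show (∏ y : ↥Y, (ρ (y : Γ)).toMonoidHom) b = _
    rw [MonoidHom.finsetProd_apply]
    rfl
  by_contra hcon
  push Not at hcon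
  obtain ⟨y₀, hy₀, b₀, hb₀⟩ := hcon
  -- `N` is invariant under `Y`
  have hNY : ∀ b : B, N (ρ y₀ b) = N b := by
    intro b
    rw [hN, hN]
    refine Fintype.prod_equiv (Equiv.mulRight (⟨y₀, hy₀⟩ : ↥Y)) _ _ (fun y => ?_)
    show ρ (y : Γ) (ρ y₀ b) = ρ ((y * ⟨y₀, hy₀⟩ : ↥Y) : Γ) b
    rw [Subgroup.coe_mul, map_mul]
    rfl
  -- the kernel of `N` is `A`-invariant
  have hNA : ∀ a ∈ A, ∀ b : B, N (ρ a b) = ρ a (N b) := by
    intro a ha b
    rw [hN, hN, map_prod]
    have hconj : ∀ y : ↥Y, a⁻¹ * (y : Γ) * a ∈ Y := by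
      intro y
      have := (mem_normalizer_iff.mp (inv_mem (hAY ha)) (y : Γ)).mp y.2
      simpa using this
    have hconj' : ∀ y : ↥Y, a * (y : Γ) * a⁻¹ ∈ Y := fun y =>
      (mem_normalizer_iff.mp (hAY ha) (y : Γ)).mp y.2
    let e : ↥Y ≃ ↥Y :=
      { toFun := fun y => ⟨a⁻¹ * (y : Γ) * a, hconj y⟩
        invFun := fun y => ⟨a * (y : Γ) * a⁻¹, hconj' y⟩
        left_inv := fun y => Subtype.ext (by simp [mul_assoc])
        right_inv := fun y => Subtype.ext (by simp [mul_assoc]) }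
    refine Fintype.prod_equiv e _ _ (fun y => ?_)
    show ρ (y : Γ) (ρ a b) = ρ a (ρ (a⁻¹ * (y : Γ) * a) b)
    rw [← MulAut.mul_apply, ← MulAut.mul_apply, ← map_mul, ← map_mul]
    congr 2
    group
  -- a nontrivial element of the kernel
  have hk₀ : b₀⁻¹ * ρ y₀ b₀ ∈ N.ker := by
    rw [MonoidHom.mem_ker, map_mul, map_inv, hNY, inv_mul_cancel]
  have hk₀1 : b₀⁻¹ * ρ y₀ b₀ ≠ 1 := by
    intro h1
    apply hb₀
    have := congrArg (fun z => b₀ * z) h1
    simpa using this
  -- the action of `A` on the kernel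
  let act : MulAction ↥A ↥N.ker :=
    { smul := fun a k => ⟨ρ (a : Γ) (k : B), by
        rw [MonoidHom.mem_ker, hNA a a.2, MonoidHom.mem_ker.mp k.2, map_one]⟩
      one_smul := fun k => Subtype.ext (by
        show ρ ((1 : ↥A) : Γ) (k : B) = k
        simp)
      mul_smul := fun a a' k => Subtype.ext (by
        show ρ ((a * a' : ↥A) : Γ) (k : B) = ρ (a : Γ) (ρ (a' : Γ) (k : B))
        rw [Subgroup.coe_mul, map_mul]
        rfl) }
  have hKp : IsPGroup p ↥N.ker := hB.to_subgroup _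
  have hdvd : p ∣ Nat.card ↥N.ker := by
    obtain ⟨n, hn⟩ := IsPGroup.iff_card.mp hKp
    rw [hn]
    have hn0 : n ≠ 0 := by
      rintro rfl
      rw [pow_zero] at hn
      have : Subsingleton ↥N.ker := (Nat.card_eq_one_iff_unique.mp hn).1
      have h2 := Subsingleton.elim (⟨_, hk₀⟩ : ↥N.ker) 1
      exact hk₀1 (congrArg Subtype.val h2)
    exact dvd_pow_self p hn0
  have h1fix : (1 : ↥N.ker) ∈ MulAction.fixedPoints ↥A ↥N.ker := by
    intro a
    exact Subtype.ext (by
      show ρ (a : Γ) ((1 : ↥N.ker) : B) = ((1 : ↥N.ker) : B)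
      simp)
  obtain ⟨k, hkfix, hk1⟩ := hA.exists_fixed_point_of_prime_dvd_card_of_fixed_point ↥N.ker hdvd h1fix
  have hkA : ∀ a ∈ A, ρ a (k : B) = k := by
    intro a ha
    have := hkfix ⟨a, ha⟩
    exact congrArg Subtype.val this
  have hkY := hfix (k : B) hkA
  have hNk : N (k : B) = (k : B) ^ Nat.card ↥Y := by
    rw [hN]
    have : ∀ y : ↥Y, ρ (y : Γ) (k : B) = (k : B) := fun y => hkY y y.2
    simp only [this, Finset.prod_const, Finset.card_univ, Nat.card_eq_fintype_card]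
  have hk' : (k : B) ^ Nat.card ↥Y = 1 := by rw [← hNk]; exact MonoidHom.mem_ker.mp k.2
  obtain ⟨n, hn⟩ := hB (k : B)
  have h1 : orderOf (k : B) ∣ Nat.card ↥Y := orderOf_dvd_of_pow_eq_one hk'
  have h2 : orderOf (k : B) ∣ p ^ n := orderOf_dvd_of_pow_eq_one hn
  have h3 : orderOf (k : B) = 1 :=
    Nat.eq_one_of_dvd_coprimes (Nat.Coprime.pow_right n hY) h1 h2
  exact hk1 (Subtype.ext (orderOf_eq_one_iff.mp h3).symm)

end AbelianCase

section ConjAut

variable {H : Type*} [Group H]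

/-- Conjugation by an element of the normalizer, as an automorphism of the subgroup. -/
def conjAut (V : Subgroup H) : ↥(normalizer (V : Set H)) →* MulAut ↥V where
  toFun x :=
    { toFun := fun v => ⟨(x : H) * v * (x : H)⁻¹, (mem_normalizer_iff.mp x.2 v).mp v.2⟩
      invFun := fun v => ⟨(x : H)⁻¹ * v * (x : H), by
        have := (mem_normalizer_iff.mp (inv_mem x.2) v).mp v.2
        simpa using this⟩
      left_inv := fun v => Subtype.ext (by simp [mul_assoc])
      right_inv := fun v => Subtype.ext (by simp [mul_assoc])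
      map_mul' := fun v w => Subtype.ext (by simp [mul_assoc]) }
  map_one' := by
    ext v
    simp
  map_mul' x y := by
    ext v
    simp [mul_assoc]

theorem coe_conjAut (V : Subgroup H) (x : ↥(normalizer (V : Set H))) (v : ↥V) :
    ((conjAut V x v : ↥V) : H) = (x : H) * v * (x : H)⁻¹ := rfl

end ConjAut

section GPQ

variable {H : Type*} [Group H] [Finite H]

/-- **Generalised Thompson `P × Q` lemma** (odd `p`): let `A` be a `p`-group normalizing the
`p'`-group `Y`, both normalizing the `p`-group `R`. If `C_R(A) ≤ C(Y)` then `R ≤ C(Y)`. -/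
theorem gpq {p : ℕ} [Fact p.Prime] (hp2 : p ≠ 2) {A Y : Subgroup H} (hA : IsPGroup p A)
    (hY : (Nat.card Y).Coprime p) (hAY : A ≤ normalizer (Y : Set H)) :
    ∀ (n : ℕ) (R : Subgroup H), Nat.card R ≤ n → IsPGroup p R →
      A ≤ normalizer (R : Set H) → Y ≤ normalizer (R : Set H) →
      R ⊓ centralizer (A : Set H) ≤ centralizer (Y : Set H) → R ≤ centralizer (Y : Set H) := by
  have hp : p.Prime := Fact.out
  intro n
  induction n with
  | zero =>
    intro R hn
    exact absurd hn (by have : 0 < Nat.card R := Nat.card_pos; omega)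
  | succ n ih =>
  intro R hn hR hAR hYR hC
  by_cases hR1 : R = ⊥
  · rw [hR1]; exact bot_le
  have hcop : (Nat.card Y).Coprime (Nat.card R) := by
    obtain ⟨j, hj⟩ := IsPGroup.iff_card.mp hR
    rw [hj]
    exact Nat.Coprime.pow_right j hY
  have hle : ⁅R, Y⁆ ≤ R := Subgroup.le_normalizer_iff_commutator_le_left.mp hYR
  have hlt_card : ∀ {S : Subgroup H}, S < R → Nat.card S ≤ n := by
    intro S hS
    have := Helper24.card_lt_card_of_lt hS
    omega
  by_cases hRY : ⁅R, Y⁆ = R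
  · -- `R = [R, Y]`: first `Y` centralizes `R' = [R, R]`
    have hR'lt : ⁅R, R⁆ < R := Helper24.commutator_lt_of_isPGroup hR hR le_normalizer hR1
    have hAR' : A ≤ normalizer ((⁅R, R⁆ : Subgroup H) : Set H) :=
      (le_inf hAR hAR).trans (Helper24.normalizer_inf_le_normalizer_commutator R R)
    have hYR' : Y ≤ normalizer ((⁅R, R⁆ : Subgroup H) : Set H) :=
      (le_inf hYR hYR).trans (Helper24.normalizer_inf_le_normalizer_commutator R R)
    have hR'Y : ⁅R, R⁆ ≤ centralizer (Y : Set H) :=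
      ih ⁅R, R⁆ (hlt_card hR'lt) (hR.to_le hR'lt.le) hAR' hYR'
        ((inf_le_inf_right _ hR'lt.le).trans hC)
    -- three subgroups: `[R, R']= 1`
    have h1 : ⁅⁅⁅R, R⁆, R⁆, Y⁆ = ⊥ := by
      rw [Subgroup.commutator_eq_bot_iff_le_centralizer]
      exact (show ⁅⁅R, R⁆, R⁆ ≤ ⁅R, R⁆ from Subgroup.commutator_mono hR'lt.le le_rfl).trans hR'Y
    have h2 : ⁅⁅Y, ⁅R, R⁆⁆, R⁆ = ⊥ := by
      have : ⁅Y, ⁅R, R⁆⁆ = ⊥ := by
        rw [Subgroup.commutator_comm, Subgroup.commutator_eq_bot_iff_le_centralizer]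
        exact hR'Y
      rw [this]
      exact Subgroup.commutator_bot_left R
    have h3 : ⁅⁅R, Y⁆, ⁅R, R⁆⁆ = ⊥ := Subgroup.commutator_commutator_eq_bot_of_rotate h2 h1
    rw [hRY] at h3
    have hcl : ∀ x ∈ R, ∀ y ∈ R, ∀ z ∈ R, ⁅x, y⁆ * z = z * ⁅x, y⁆ := by
      intro x hx y hy z hz
      have h4 : ⁅R, R⁆ ≤ centralizer (R : Set H) := by
        rw [← Subgroup.commutator_eq_bot_iff_le_centralizer, Subgroup.commutator_comm]
        exact h3
      exact ((Subgroup.mem_centralizer_iff.mp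
        (h4 (Subgroup.commutator_mem_commutator hx hy))) z hz).symm
    -- the Baer group
    have hodd : Odd (Nat.card R) := by
      obtain ⟨j, hj⟩ := IsPGroup.iff_card.mp hR
      rw [hj]
      exact (hp.odd_of_ne_two hp2).pow
    obtain ⟨k, hk⟩ := hodd
    have hB : BaerHyp ↥R (k + 1) :=
      { central := fun x y z => Subtype.ext (by
          have := hcl x x.2 y y.2 z z.2
          have e : ((⁅x, y⁆ : ↥R) : H) = ⁅(x : H), (y : H)⁆ := map_commutatorElement R.subtype x y
          rw [Subgroup.coe_mul, Subgroup.coe_mul, e]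
          exact this)
        sqrt := fun x y => by
          have h5 : 2 * (k + 1) = Nat.card ↥R + 1 := by omega
          rw [h5, pow_succ, pow_card_eq_one', one_mul] }
    have hfin : Finite (Baer ↥R hB) := inferInstanceAs (Finite ↥R)
    have hBp : IsPGroup p (Baer ↥R hB) := by
      obtain ⟨j, hj⟩ := IsPGroup.iff_card.mp hR
      exact IsPGroup.of_card (n := j) hj
    let ρ : ↥(normalizer (R : Set H)) →* MulAut (Baer ↥R hB) := (Baer.mapAut hB).comp (conjAut R)
    have hρ : ∀ (x : ↥(normalizer (R : Set H))) (b : Baer ↥R hB),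
        ((Baer.val hB (ρ x b) : ↥R) : H) = (x : H) * ((Baer.val hB b : ↥R) : H) * (x : H)⁻¹ :=
      fun x b => rfl
    have hfinY : Finite ↥(Y.subgroupOf (normalizer (R : Set H))) := inferInstance
    have key := abelian_gpq hBp ρ (A.subgroupOf (normalizer (R : Set H)))
      (Y.subgroupOf (normalizer (R : Set H))) hA.comap_subtype
      (by rw [Helper35.card_subgroupOf_of_le hYR]; exact hY)
      (by
        intro a ha
        rw [Subgroup.mem_subgroupOf] at ha
        rw [mem_normalizer_iff]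
        intro y
        rw [Subgroup.mem_subgroupOf, Subgroup.mem_subgroupOf]
        exact mem_normalizer_iff.mp (hAY ha) y)
      (by
        intro b hb y hy
        rw [Subgroup.mem_subgroupOf] at hy
        have hbA : ((Baer.val hB b : ↥R) : H) ∈ R ⊓ centralizer (A : Set H) := by
          refine Subgroup.mem_inf.mpr ⟨(Baer.val hB b).2, ?_⟩
          rw [Subgroup.mem_centralizer_iff]
          intro a ha
          have h6 := hb ⟨a, hAR ha⟩ (by rw [Subgroup.mem_subgroupOf]; exact ha)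
          have h7 := hρ ⟨a, hAR ha⟩ b
          rw [h6] at h7
          have h8 : ((Baer.val hB b : ↥R) : H) * a = a * ((Baer.val hB b : ↥R) : H) * a⁻¹ * a :=
            congrArg (· * a) h7
          rw [h8]; group
        have h9 := (Subgroup.mem_centralizer_iff.mp (hC hbA)) (y : H) hy
        apply Baer.ext hB
        apply Subtype.ext
        rw [hρ, h9]; group)
    intro r hr
    rw [Subgroup.mem_centralizer_iff]
    intro y hy
    have h10 := key ⟨y, hYR hy⟩ (by rw [Subgroup.mem_subgroupOf]; exact hy) (Baer.mk hB ⟨r, hr⟩)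
    have h11 := hρ ⟨y, hYR hy⟩ (Baer.mk hB ⟨r, hr⟩)
    rw [h10] at h11
    have h12 : r = y * r * y⁻¹ := h11
    have h13 : r * y = y * r * y⁻¹ * y := congrArg (· * y) h12
    rw [h13]; group
  · -- `[R, Y] < R`: induction, then coprime action
    have hlt : ⁅R, Y⁆ < R := lt_of_le_of_ne hle hRY
    have hA1 : A ≤ normalizer ((⁅R, Y⁆ : Subgroup H) : Set H) :=
      (le_inf hAR hAY).trans (Helper24.normalizer_inf_le_normalizer_commutator R Y)
    have hY1 : Y ≤ normalizer ((⁅R, Y⁆ : Subgroup H) : Set H) :=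
      (le_inf hYR le_normalizer).trans (Helper24.normalizer_inf_le_normalizer_commutator R Y)
    have h1 : ⁅R, Y⁆ ≤ centralizer (Y : Set H) :=
      ih ⁅R, Y⁆ (hlt_card hlt) (hR.to_le hle) hA1 hY1 ((inf_le_inf_right _ hle).trans hC)
    exact Helper24.le_centralizer_of_commutator_le_centralizer hYR hcop h1

end GPQ

end Cfsg.Agent.Helper23
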