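/-
helper23: invariant `p'`-subgroups of `p`-constrained groups.  If `C` is `p`-constrained and `E`
is an abelian `p`-subgroup containing every `p`-element of `C_C(E)`, then every `E`-invariant
`p'`-subgroup of `C` lies in `O_{p'}(C)` (for odd `p`, or when commutators of `p`-subgroups are
central).  Everything lives in `Cfsg.Agent.Helper23`.
-/
import Cfsg.Agent.Helper23.Baer
import Cfsg.Agent.Helper54.PConstrained

set_option autoImplicit false

namespace Cfsg.Agent.Helper23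

open Cfsg Subgroup
open scoped commutatorElement

section CL

variable {C : Type*} [Group C] [Finite C] {p : ℕ} [Fact p.Prime]

omit [Fact p.Prime] in
/-- The powers of an element of `p`-power order form a `p`-group. -/
theorem isPGroup_zpowers_of_pow_eq_one {G : Type*} [Group G] {x : G} {n : ℕ}
    (h : x ^ p ^ n = 1) : IsPGroup p (zpowers x) := by
  rintro ⟨g, hg⟩
  obtain ⟨k, rfl⟩ := Subgroup.mem_zpowers_iff.mp hg
  refine ⟨n, Subtype.ext ?_⟩
  show (x ^ k) ^ p ^ n = 1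
  rw [← zpow_natCast, ← zpow_mul, mul_comm, zpow_mul, zpow_natCast, h, one_zpow]

/-- **Invariant `p'`-subgroups of a `p`-constrained group**: if `C` is `p`-constrained and `E` is an
abelian `p`-subgroup containing every `p`-element of `C_C(E)`, then every `E`-invariant
`p'`-subgroup of `C` lies in `O_{p'}(C)`; here `p` is odd, or commutators of elements of any
`p`-subgroup of `C` are central in that subgroup. -/
theorem inv_le_pPrimeCore (hC : IsPConstrained p C)
    (hcl : p ≠ 2 ∨ ∀ T : Subgroup C, IsPGroup p T →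
      ∀ x ∈ T, ∀ y ∈ T, ∀ z ∈ T, ⁅x, y⁆ * z = z * ⁅x, y⁆)
    {E Y : Subgroup C} (hEp : IsPGroup p E) (hEc : ∀ x ∈ E, ∀ y ∈ E, x * y = y * x)
    (hfull : ∀ x ∈ centralizer (E : Set C), IsPGroup p (zpowers x) → x ∈ E)
    (hY : (Nat.card Y).Coprime p) (hEY : E ≤ normalizer (Y : Set C)) :
    Y ≤ pPrimeCore p C := by
  have hp : p.Prime := Fact.out
  obtain ⟨φ, hφdef⟩ : ∃ φ : C →* C ⧸ pPrimeCore p C, φ = QuotientGroup.mk' (pPrimeCore p C) :=
    ⟨_, rfl⟩
  have hφ : Function.Surjective φ := by rw [hφdef]; exact QuotientGroup.mk'_surjective _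
  have hker : φ.ker = pPrimeCore p C := by rw [hφdef]; exact QuotientGroup.ker_mk' _
  have hc := Helper22.card_pPrimeCore_coprime p C
  have hb := Helper55.pPrimeCore_quotient_eq_bot p C
  have hQ : centralizer (pCore p (C ⧸ pPrimeCore p C) : Set (C ⧸ pPrimeCore p C)) ≤
      pCore p (C ⧸ pPrimeCore p C) :=
    (Helper54.isPConstrained_iff_of_surjective φ hφ (by rw [hker]; exact hc) hb).mp hC
  obtain ⟨Rb, hRb⟩ : ∃ Rb : Subgroup (C ⧸ pPrimeCore p C), Rb = pCore p (C ⧸ pPrimeCore p C) :=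
    ⟨_, rfl⟩
  rw [← hRb] at hQ
  have hRn : Rb.Normal := by rw [hRb]; infer_instance
  have hRp : IsPGroup p Rb := by rw [hRb]; exact Helper22.pCore_isPGroup p _
  have hEb : IsPGroup p (E.map φ) := hEp.map φ
  have hYb : (Nat.card (Y.map φ)).Coprime p :=
    Nat.Coprime.coprime_dvd_left (Subgroup.card_map_dvd Y φ) hY
  have hEYb : E.map φ ≤ normalizer ((Y.map φ : Subgroup (C ⧸ pPrimeCore p C)) : Set _) :=
    (Subgroup.map_mono hEY).trans (Subgroup.le_normalizer_map φ)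
  have hdisj : ∀ x, x ∈ Rb → x ∈ Y.map φ → x = 1 := fun x h1 h2 =>
    Helper54.eq_one_of_mem_pgroup_of_mem_coprime hRp hYb h1 h2
  have hEcb : ∀ x ∈ E.map φ, ∀ y ∈ E.map φ, x * y = y * x := by
    rintro _ ⟨x, hx, rfl⟩ _ ⟨y, hy, rfl⟩
    rw [← map_mul, ← map_mul, hEc x hx y hy]
  -- (e) `C_R(E) ≤ E` in the quotient
  have hCR : ∀ r, r ∈ Rb → r ∈ centralizer ((E.map φ : Subgroup _) : Set (C ⧸ pPrimeCore p C)) →
      r ∈ E.map φ := by
    intro r hr hrE
    have h1 := (S3800.result (pPrimeCore p C) hc E hEp).2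
    rw [← hφdef] at h1
    rw [h1] at hrE
    obtain ⟨c, hc', rfl⟩ := hrE
    obtain ⟨e, m, hm, hem⟩ := Nat.exists_eq_pow_mul_and_not_dvd (orderOf_pos c).ne' p hp.ne_one
    have h2 : (c ^ m) ^ p ^ e = 1 := by
      rw [← pow_mul, mul_comm, ← hem, pow_orderOf_eq_one]
    have h3 : c ^ m ∈ E := hfull _ (pow_mem hc' m) (isPGroup_zpowers_of_pow_eq_one h2)
    obtain ⟨j, hj⟩ := hRp ⟨φ c, hr⟩
    have hj' : (φ c) ^ p ^ j = 1 := by
      have := congrArg Subtype.val hj
      simpa using this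
    have h4 : m.Coprime (orderOf (φ c)) := by
      have h5 : orderOf (φ c) ∣ p ^ j := orderOf_dvd_of_pow_eq_one hj'
      exact Nat.Coprime.coprime_dvd_right h5
        (Nat.Coprime.pow_right j ((Nat.Prime.coprime_iff_not_dvd hp).mpr hm).symm)
    obtain ⟨t, ht⟩ := exists_pow_eq_self_of_coprime h4
    rw [← ht]
    refine pow_mem ?_ t
    rw [← map_pow]
    exact Subgroup.mem_map_of_mem φ h3
  -- (f) `Y` centralizes `E ∩ R`
  have hYE0 : ∀ y ∈ Y.map φ, ∀ e ∈ E.map φ, e ∈ Rb → y * e = e * y := by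
    intro y hy e he heR
    have h1 : ⁅y, e⁆ ∈ Y.map φ := by
      have h2 : e * y⁻¹ * e⁻¹ ∈ Y.map φ :=
        (mem_normalizer_iff.mp (hEYb he) y⁻¹).mp (inv_mem hy)
      have h3 : ⁅y, e⁆ = y * (e * y⁻¹ * e⁻¹) := by rw [commutatorElement_def]; group
      rw [h3]
      exact mul_mem hy h2
    have h4 : ⁅y, e⁆ ∈ Rb := by
      have h5 : y * e * y⁻¹ ∈ Rb := hRn.conj_mem e heR y
      rw [commutatorElement_def]
      exact mul_mem h5 (inv_mem heR)
    have h6 := hdisj _ h4 h1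
    exact (commutatorElement_eq_one_iff_commute.mp h6).eq
  have hinf : Rb ⊓ centralizer ((E.map φ : Subgroup _) : Set (C ⧸ pPrimeCore p C)) ≤
      centralizer ((Y.map φ : Subgroup _) : Set (C ⧸ pPrimeCore p C)) := by
    intro r hr
    obtain ⟨hr1, hr2⟩ := Subgroup.mem_inf.mp hr
    rw [Subgroup.mem_centralizer_iff]
    intro y hy
    exact hYE0 y hy r (hCR r hr1 hr2) hr1
  have hnorm : ∀ S : Subgroup (C ⧸ pPrimeCore p C), S ≤ normalizer (Rb : Set _) := by
    intro S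
    rw [Subgroup.normalizer_eq_top]
    exact le_top
  -- (h) `R ≤ C(Y)`
  have key : Rb ≤ centralizer ((Y.map φ : Subgroup _) : Set (C ⧸ pPrimeCore p C)) := by
    rcases hcl with hp2 | hcl2
    · exact gpq hp2 hEb hYb hEYb _ Rb le_rfl hRp (hnorm _) (hnorm _) hinf
    · -- the class two case
      -- (α) commutators `[r, e]` lie in `E ∩ R`
      have hα : ∀ r ∈ Rb, ∀ e ∈ E.map φ, ⁅r, e⁆ ∈ E.map φ ∧ ⁅r, e⁆ ∈ Rb := by
        intro r hr e he
        have hR1 : ⁅r, e⁆ ∈ Rb := by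
          have h5 : e * r⁻¹ * e⁻¹ ∈ Rb := hRn.conj_mem _ (inv_mem hr) e
          have h3 : ⁅r, e⁆ = r * (e * r⁻¹ * e⁻¹) := by rw [commutatorElement_def]; group
          rw [h3]
          exact mul_mem hr h5
        refine ⟨hCR _ hR1 ?_, hR1⟩
        have hT : IsPGroup p (Rb ⊔ E.map φ : Subgroup (C ⧸ pPrimeCore p C)) :=
          IsPGroup.to_sup_of_normal_left hRp hEb
        obtain ⟨L, hL⟩ : ∃ L : Subgroup C, L = (Rb ⊔ E.map φ).comap φ := ⟨_, rfl⟩
        have hEL : E ≤ L := by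
          rw [hL, ← Subgroup.map_le_iff_le_comap]
          exact le_sup_right
        obtain ⟨P, hP⟩ := IsPGroup.exists_le_sylow (hEp.comap_subtype (K := L))
        have hmap := Helper54.sylow_map_eq φ hφ _ hT L hL P
        have hP' : IsPGroup p ((P : Subgroup ↥L).map L.subtype) := P.2.map _
        have hEP : E ≤ (P : Subgroup ↥L).map L.subtype := by
          intro x hx
          exact ⟨⟨x, hEL hx⟩, hP (show (⟨x, hEL hx⟩ : ↥L) ∈ E.subgroupOf L from
            Subgroup.mem_subgroupOf.mpr hx), rfl⟩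
        have hr' : r ∈ ((P : Subgroup ↥L).map L.subtype).map φ := by
          rw [hmap]; exact Subgroup.mem_sup_left hr
        obtain ⟨ρ, hρ, rfl⟩ := hr'
        obtain ⟨ε, hε, rfl⟩ := he
        rw [Subgroup.mem_centralizer_iff]
        rintro _ ⟨ε', hε', rfl⟩
        have h7 := hcl2 _ hP' ρ hρ ε (hEP hε) ε' (hEP hε')
        have h8 := congrArg φ h7
        rw [map_mul, map_mul, map_commutatorElement] at h8
        exact h8.symm
      have hcomm : ∀ y ∈ Y.map φ, ∀ e ∈ E.map φ, y * e = e * y := by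
        intro y hy e he
        obtain ⟨g, hg⟩ : ∃ g, g = y⁻¹ * e⁻¹ * y * e := ⟨_, rfl⟩
        have hgY : g ∈ Y.map φ := by
          have h2 : e⁻¹ * y * e⁻¹⁻¹ ∈ Y.map φ :=
            (mem_normalizer_iff.mp (hEYb (inv_mem he)) y).mp hy
          have h3 : g = y⁻¹ * (e⁻¹ * y * e⁻¹⁻¹) := by rw [hg]; group
          rw [h3]
          exact mul_mem (inv_mem hy) h2
        -- `g` acts on `R` by multiplication with elements of `E ∩ R`
        have hstep : ∀ r ∈ Rb, ∃ z, z ∈ E.map φ ∧ z ∈ Rb ∧ g⁻¹ * r * g = r * z := by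
          intro r hr
          have hs : y * r * y⁻¹ ∈ Rb := hRn.conj_mem r hr y
          obtain ⟨hz2E, hz2R⟩ := hα _ (inv_mem hs) e he
          obtain ⟨hz1E, hz1R⟩ := hα _ (inv_mem hr) _ (inv_mem he)
          refine ⟨⁅r⁻¹, e⁻¹⁆ * ⁅(y * r * y⁻¹)⁻¹, e⁆, mul_mem hz1E hz2E, mul_mem hz1R hz2R, ?_⟩
          have e1 : y * ⁅(y * r * y⁻¹)⁻¹, e⁆ = ⁅(y * r * y⁻¹)⁻¹, e⁆ * y := hYE0 y hy _ hz2E hz2R
          have e2 : ⁅(y * r * y⁻¹)⁻¹, e⁆ * e = e * ⁅(y * r * y⁻¹)⁻¹, e⁆ := hEcb _ hz2E e he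
          have e3 : g⁻¹ * r * g = e⁻¹ * y⁻¹ * ((y * r * y⁻¹) * ⁅(y * r * y⁻¹)⁻¹, e⁆) * y * e := by
            rw [hg]; simp only [commutatorElement_def]; group
          have e4 : ⁅r⁻¹, e⁻¹⁆ = r⁻¹ * e⁻¹ * r * e := by rw [commutatorElement_def]; group
          rw [e3]
          calc e⁻¹ * y⁻¹ * ((y * r * y⁻¹) * ⁅(y * r * y⁻¹)⁻¹, e⁆) * y * e
              = e⁻¹ * y⁻¹ * (y * r * y⁻¹) * (⁅(y * r * y⁻¹)⁻¹, e⁆ * y) * e := by
                simp only [mul_assoc]
            _ = e⁻¹ * y⁻¹ * (y * r * y⁻¹) * (y * ⁅(y * r * y⁻¹)⁻¹, e⁆) * e := by rw [e1]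
            _ = e⁻¹ * r * (⁅(y * r * y⁻¹)⁻¹, e⁆ * e) := by group
            _ = e⁻¹ * r * (e * ⁅(y * r * y⁻¹)⁻¹, e⁆) := by rw [e2]
            _ = r * (r⁻¹ * e⁻¹ * r * e) * ⁅(y * r * y⁻¹)⁻¹, e⁆ := by group
            _ = r * (⁅r⁻¹, e⁻¹⁆ * ⁅(y * r * y⁻¹)⁻¹, e⁆) := by rw [← e4, mul_assoc]
        have hpow : ∀ (n : ℕ), ∀ r ∈ Rb, ∃ z, z ∈ Rb ∧ (g ^ n)⁻¹ * r * g ^ n = r * z ^ n := by
          intro n r hr
          obtain ⟨z, hzE, hzR, hz⟩ := hstep r hr
          refine ⟨z, hzR, ?_⟩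
          induction n with
          | zero => simp
          | succ n ih =>
            have e5 : g * z ^ n = z ^ n * g :=
              hYE0 g hgY _ (pow_mem hzE n) (pow_mem hzR n)
            calc (g ^ (n + 1))⁻¹ * r * g ^ (n + 1)
                = g⁻¹ * ((g ^ n)⁻¹ * r * g ^ n) * g := by rw [pow_succ]; group
              _ = g⁻¹ * (r * z ^ n) * g := by rw [ih]
              _ = (g⁻¹ * r * g) * (g⁻¹ * (z ^ n * g)) := by group
              _ = (g⁻¹ * r * g) * (g⁻¹ * (g * z ^ n)) := by rw [e5]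
              _ = r * z * z ^ n := by rw [hz]; group
              _ = r * z ^ (n + 1) := by rw [pow_succ']; group
        have hgN : g ^ Nat.card Rb ∈ Rb := by
          apply hQ
          rw [Subgroup.mem_centralizer_iff]
          intro r hr
          obtain ⟨z, hzR, hz⟩ := hpow (Nat.card Rb) r hr
          rw [Helper24.pow_card_eq_one_of_mem hzR, mul_one] at hz
          have e6 : r * g ^ Nat.card Rb =
              g ^ Nat.card Rb * ((g ^ Nat.card Rb)⁻¹ * r * g ^ Nat.card Rb) := by group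
          rw [e6, hz]
        have hg1 : g ^ Nat.card Rb = 1 := hdisj _ hgN (pow_mem hgY _)
        have hg2 : g ^ Nat.card ↥(Y.map φ) = 1 := Helper24.pow_card_eq_one_of_mem hgY
        have hcop : (Nat.card Rb).Coprime (Nat.card ↥(Y.map φ)) := by
          obtain ⟨j, hj⟩ := IsPGroup.iff_card.mp hRp
          rw [hj]
          exact (Nat.Coprime.pow_right j hYb).symm
        have hg3 : orderOf g = 1 := Nat.eq_one_of_dvd_coprimes hcop
          (orderOf_dvd_of_pow_eq_one hg1) (orderOf_dvd_of_pow_eq_one hg2)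
        have hg4 : g = 1 := orderOf_eq_one_iff.mp hg3
        rw [hg] at hg4
        have e7 : y * e = e * y * (y⁻¹ * e⁻¹ * y * e) := by group
        rw [e7, hg4, mul_one]
      have hcomm' : ⁅Y.map φ, E.map φ⁆ = ⊥ := by
        rw [Subgroup.commutator_eq_bot_iff_le_centralizer]
        intro y hy
        rw [Subgroup.mem_centralizer_iff]
        intro e he
        exact (hcomm y hy e he).symm
      exact Helper24.thompson_AxB (Y.map φ) (E.map φ) hEb hcomm' hYb _ Rb le_rfl hRp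
        (hnorm _) (hnorm _) hinf
  -- conclusion
  intro y hy
  have hyb : φ y ∈ Y.map φ := Subgroup.mem_map_of_mem φ hy
  have h1 : φ y ∈ Rb := by
    apply hQ
    rw [Subgroup.mem_centralizer_iff]
    intro r hr
    exact ((Subgroup.mem_centralizer_iff.mp (key hr)) _ hyb).symm
  have h2 := hdisj _ h1 hyb
  rw [← hker]
  exact MonoidHom.mem_ker.mpr h2

end CL

end Cfsg.Agent.Helper23
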