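/-
helper23: Thompson's transitivity theorem.  In a finite group whose `p`-local subgroups are
`p`-constrained (with Sylow `2`-subgroups of class at most two when `p = 2`), if `E` is an
abelian `p`-subgroup of rank at least three containing every `p`-element of `C_G(E)`, then
`O_{p'}(C_G(E))` is transitive on the maximal `E`-invariant `q`-subgroups, `q ≠ p`.
Everything lives in `Cfsg.Agent.Helper23`.
-/
import Cfsg.Agent.Helper23.Constrained
import Cfsg.Agent.Helper23.Trans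

set_option autoImplicit false

namespace Cfsg.Agent.Helper23

open Cfsg Subgroup Cfsg.Agent.Helper35
open scoped Pointwise commutatorElement

universe u

section ThompTrans

variable {G : Type u} [Group G] [Finite G] {p : ℕ} [Fact p.Prime]

/-- If `E` is an abelian `p`-subgroup containing every `p`-element of `C_G(E)`, then every
`p'`-subgroup of `C_G(E)` lies in `O_{p'}(C_G(E))`. -/
theorem le_piCoreOf_centralizer {E : Subgroup G} (hEp : IsPGroup p E)
    (hEc : ∀ x ∈ E, ∀ y ∈ E, x * y = y * x)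
    (hfull : ∀ x ∈ centralizer (E : Set G), IsPGroup p (zpowers x) → x ∈ E)
    {Y : Subgroup G} (hYC : Y ≤ centralizer (E : Set G)) (hY : (Nat.card Y).Coprime p) :
    Y ≤ piCoreOf (primesNotDvd p) (centralizer (E : Set G)) := by
  have hp : p.Prime := Fact.out
  obtain ⟨C, hCdef⟩ : ∃ C : Subgroup G, C = centralizer (E : Set G) := ⟨_, rfl⟩
  rw [← hCdef] at hYC ⊢
  have hEC : E ≤ C := by
    rw [hCdef]
    intro x hx
    rw [Subgroup.mem_centralizer_iff]
    intro y hy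
    exact hEc y hy x hx
  have hcomm : ∀ e ∈ E, ∀ c ∈ C, e * c = c * e := by
    intro e he c hc
    rw [hCdef] at hc
    exact (Subgroup.mem_centralizer_iff.mp hc) e he
  have hEn : (E.subgroupOf C).Normal := by
    refine ⟨fun e he c => ?_⟩
    rw [Subgroup.mem_subgroupOf] at he ⊢
    have h1 : ((c * e * c⁻¹ : ↥C) : G) = (e : G) := by
      rw [Subgroup.coe_mul, Subgroup.coe_mul, ← hcomm _ he _ c.2, Subgroup.coe_inv]
      group
    rw [h1]; exact he
  -- `E` is a Sylow subgroup of `C`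
  obtain ⟨P, hP⟩ := IsPGroup.exists_le_sylow (hEp.comap_subtype (K := C))
  have hPE : (P : Subgroup ↥C) = E.subgroupOf C := by
    refine le_antisymm (fun x hx => ?_) hP
    rw [Subgroup.mem_subgroupOf]
    apply hfull
    · rw [← hCdef]; exact x.2
    · obtain ⟨k, hk⟩ := P.2 ⟨x, hx⟩
      have hk' : (x : G) ^ p ^ k = 1 := by
        have h2 := congrArg (fun z : ↥(P : Subgroup ↥C) => ((z : ↥C) : G)) hk
        simpa using h2
      exact isPGroup_zpowers_of_pow_eq_one hk'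
  have hcop : (Nat.card (E.subgroupOf C)).Coprime (E.subgroupOf C).index := by
    rw [← hPE]
    obtain ⟨j, hj⟩ := IsPGroup.iff_card.mp P.2
    rw [hj]
    exact Nat.Coprime.pow_left j ((Nat.Prime.coprime_iff_not_dvd hp).mpr P.not_dvd_index)
  obtain ⟨M, hM⟩ := Subgroup.exists_right_complement'_of_coprime hcop
  have hMcard : Nat.card M = (E.subgroupOf C).index := (index_eq_card_of_isComplement' hM).symm
  have hMp : (Nat.card M).Coprime p := by
    rw [hMcard, ← hPE]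
    exact ((Nat.Prime.coprime_iff_not_dvd hp).mpr P.not_dvd_index).symm
  -- the image of `M` in `G`
  have hMC : M.map C.subtype ≤ C := Subgroup.map_subtype_le _
  have hMn : C ≤ normalizer ((M.map C.subtype : Subgroup G) : Set G) := by
    rw [Subgroup.le_normalizer_iff]
    rintro c hc _ ⟨m, hm, rfl⟩
    obtain ⟨e, he, m', hm', hem⟩ := exists_mul_of_isComplement' hM ⟨c, hc⟩
    refine ⟨m' * m * m'⁻¹, mul_mem (mul_mem hm' hm) (inv_mem hm'), ?_⟩
    have h3 : c = (e : G) * (m' : G) := congrArg Subtype.val hem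
    have h4 := hcomm (e : G) (Subgroup.mem_subgroupOf.mp he) _ (m' * m * m'⁻¹).2
    show ((m' * m * m'⁻¹ : ↥C) : G) = c * (m : G) * c⁻¹
    rw [h3]
    have h5 : (e : G) * (m' : G) * (m : G) * ((e : G) * (m' : G))⁻¹ =
        (e : G) * ((m' * m * m'⁻¹ : ↥C) : G) * (e : G)⁻¹ := by
      simp only [Subgroup.coe_mul, Subgroup.coe_inv]; group
    rw [h5, h4]; group
  have hMprimes : ∀ r : ℕ, r.Prime → r ∣ Nat.card (M.map C.subtype) → r ∈ primesNotDvd p := by
    intro r hr hrM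
    rw [Subgroup.card_map_of_injective C.subtype_injective] at hrM
    refine ⟨hr, fun hrp => ?_⟩
    have : r = p := (Nat.prime_dvd_prime_iff_eq hr hp).mp hrp
    rw [this] at hrM
    exact (Nat.Prime.coprime_iff_not_dvd hp).mp hMp.symm hrM
  refine le_trans ?_ (le_piCoreOf hMC hMn hMprimes)
  -- `Y ≤ M`
  intro y hy
  obtain ⟨e, he, m, hm, hem⟩ := exists_mul_of_isComplement' hM ⟨y, hYC hy⟩
  have h3 : y = (e : G) * (m : G) := congrArg Subtype.val hem
  have he' : (e : G) ∈ E := Subgroup.mem_subgroupOf.mp he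
  have h6 : (m : G) ^ Nat.card M = 1 := by
    have h7 : m ^ Nat.card M = 1 := Helper24.pow_card_eq_one_of_mem hm
    have h8 := congrArg Subtype.val h7
    rwa [Subgroup.coe_pow, Subgroup.coe_one] at h8
  have h9 : y ^ Nat.card M = (e : G) ^ Nat.card M := by
    rw [h3, (show Commute (e : G) (m : G) from hcomm _ he' _ m.2).mul_pow, h6, mul_one]
  have h10 : (e : G) ^ Nat.card M = 1 :=
    Helper54.eq_one_of_mem_pgroup_of_mem_coprime hEp hY (pow_mem he' _)
      (h9 ▸ pow_mem hy _)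
  obtain ⟨j, hj⟩ := hEp ⟨e, he'⟩
  have hj' : (e : G) ^ p ^ j = 1 := by
    have := congrArg Subtype.val hj
    simpa using this
  have h11 : orderOf (e : G) = 1 := Nat.eq_one_of_dvd_coprimes (Nat.Coprime.pow_right j hMp)
    (orderOf_dvd_of_pow_eq_one h10) (orderOf_dvd_of_pow_eq_one hj')
  have h12 : (e : G) = 1 := orderOf_eq_one_iff.mp h11
  rw [h3, h12, one_mul]
  exact ⟨m, hm, rfl⟩

omit [Finite G] [Fact p.Prime] in
/-- An element of exponent `p` in a `q`-group, `q ≠ p`, is trivial. -/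
theorem eq_one_of_pow_prime_of_mem_pgroup (hp : p.Prime) {q : ℕ} (hq : q.Prime) (hpq : p ≠ q)
    {D : Subgroup G} (hD : IsPGroup q D) {z : G} (hz : z ∈ D) (hzp : z ^ p = 1) : z = 1 := by
  obtain ⟨j, hj⟩ := hD ⟨z, hz⟩
  have hj' : z ^ q ^ j = 1 := by
    have := congrArg Subtype.val hj
    simpa using this
  have h1 : orderOf z ∣ p := orderOf_dvd_of_pow_eq_one hzp
  have h2 : orderOf z ∣ q ^ j := orderOf_dvd_of_pow_eq_one hj'
  have h3 : orderOf z = 1 :=
    Nat.eq_one_of_dvd_coprimes (Nat.Coprime.pow_right j ((Nat.coprime_primes hp hq).mpr hpq)) h1 h2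
  exact orderOf_eq_one_iff.mp h3

/-- For an elementary abelian `p`-group `E₀` of order greater than `p ^ 2` normalizing two
`q`-groups `N₁`, `N₂` (`q ≠ p`) and a common normal subgroup `D`, proper in both: some
non-identity element of `E₀` centralizes an element of `N₁ \ D` and an element of `N₂ \ D`. -/
theorem exists_common_fixed_mod {q : ℕ} [Fact q.Prime] (hpq : p ≠ q) {E₀ D N₁ N₂ : Subgroup G}
    (hE₀c : ∀ x ∈ E₀, ∀ y ∈ E₀, x * y = y * x) (hE₀p : ∀ x ∈ E₀, x ^ p = 1)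
    (hcard : p ^ 2 < Nat.card E₀)
    (hN₁ : IsPGroup q N₁) (hN₂ : IsPGroup q N₂) (hDN₁ : D < N₁) (hDN₂ : D < N₂)
    (hN₁D : N₁ ≤ normalizer (D : Set G)) (hN₂D : N₂ ≤ normalizer (D : Set G))
    (hED : E₀ ≤ normalizer (D : Set G)) (hEN₁ : E₀ ≤ normalizer (N₁ : Set G))
    (hEN₂ : E₀ ≤ normalizer (N₂ : Set G)) :
    ∃ a ∈ E₀, a ≠ 1 ∧ (∃ v ∈ N₁, v ∉ D ∧ a * v = v * a) ∧ (∃ v ∈ N₂, v ∉ D ∧ a * v = v * a) := by
  have hp : p.Prime := Fact.out
  have hq : q.Prime := Fact.out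
  obtain ⟨X, hX⟩ : ∃ X : Subgroup G, X = normalizer (D : Set G) := ⟨_, rfl⟩
  rw [← hX] at hN₁D hN₂D hED
  have hDn : (D.subgroupOf X).Normal := by rw [hX]; exact Subgroup.normal_in_normalizer
  have hDq : IsPGroup q D := hN₁.to_le hDN₁.le
  obtain ⟨π, hπ⟩ : ∃ π : ↥X →* ↥X ⧸ D.subgroupOf X, π = QuotientGroup.mk' (D.subgroupOf X) :=
    ⟨_, rfl⟩
  have hker : ∀ x : ↥X, π x = 1 ↔ (x : G) ∈ D := by
    intro x
    rw [← MonoidHom.mem_ker, hπ, QuotientGroup.ker_mk', Subgroup.mem_subgroupOf]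
  -- general facts about images
  have hNb_ne : ∀ N : Subgroup G, D < N → N ≤ X → (N.subgroupOf X).map π ≠ ⊥ := by
    intro N hDN hNX hbot
    obtain ⟨x, hxN, hxD⟩ := SetLike.exists_of_lt hDN
    have h1 : π ⟨x, hNX hxN⟩ ∈ (N.subgroupOf X).map π :=
      Subgroup.mem_map_of_mem π (Subgroup.mem_subgroupOf.mpr hxN)
    rw [hbot, Subgroup.mem_bot, hker] at h1
    exact hxD h1
  have hEb_norm : ∀ N : Subgroup G, E₀ ≤ normalizer (N : Set G) →
      (E₀.subgroupOf X).map π ≤ normalizer (((N.subgroupOf X).map π : Subgroup _) : Set _) := by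
    intro N hEN
    refine le_trans (Subgroup.map_mono ?_) (Subgroup.le_normalizer_map π)
    intro e he
    rw [Subgroup.mem_subgroupOf] at he
    rw [mem_normalizer_iff]
    intro h
    rw [Subgroup.mem_subgroupOf, Subgroup.mem_subgroupOf]
    exact mem_normalizer_iff.mp (hEN he) h
  have hEbc : ∀ x ∈ (E₀.subgroupOf X).map π, ∀ y ∈ (E₀.subgroupOf X).map π, x * y = y * x := by
    rintro _ ⟨x, hx, rfl⟩ _ ⟨y, hy, rfl⟩
    rw [← map_mul, ← map_mul]
    congr 1
    exact Subtype.ext (hE₀c _ (Subgroup.mem_subgroupOf.mp hx) _ (Subgroup.mem_subgroupOf.mp hy))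
  have hEbp : ∀ x ∈ (E₀.subgroupOf X).map π, x ^ p = 1 := by
    rintro _ ⟨x, hx, rfl⟩
    rw [← map_pow]
    have : x ^ p = 1 := Subtype.ext (by
      rw [Subgroup.coe_pow, Subgroup.coe_one]
      exact hE₀p _ (Subgroup.mem_subgroupOf.mp hx))
    rw [this, map_one]
  have hEbcard : p ^ 2 < Nat.card ↥((E₀.subgroupOf X).map π) := by
    refine lt_of_lt_of_le hcard ?_
    let f : ↥E₀ → ↥((E₀.subgroupOf X).map π) := fun x =>
      ⟨π ⟨x, hED x.2⟩, Subgroup.mem_map_of_mem π (Subgroup.mem_subgroupOf.mpr x.2)⟩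
    have hf : Function.Injective f := by
      intro x y hxy
      have h1 : π ⟨x, hED x.2⟩ = π ⟨y, hED y.2⟩ := congrArg Subtype.val hxy
      have h2 : π ((⟨x, hED x.2⟩ : ↥X)⁻¹ * ⟨y, hED y.2⟩) = 1 := by
        rw [map_mul, map_inv, h1, inv_mul_cancel]
      rw [hker] at h2
      have h3 : (x : G)⁻¹ * (y : G) ∈ D := h2
      have h4 : ((x : G)⁻¹ * (y : G)) ^ p = 1 :=
        hE₀p _ (mul_mem (inv_mem x.2) y.2)
      have h5 := eq_one_of_pow_prime_of_mem_pgroup hp hq hpq hDq h3 h4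
      exact Subtype.ext (inv_mul_eq_one.mp h5)
    exact Nat.card_le_card_of_injective f hf
  have hEbcomm : IsMulCommutative ↥((E₀.subgroupOf X).map π) :=
    ⟨⟨fun x y => Subtype.ext (hEbc x.1 x.2 y.1 y.2)⟩⟩
  obtain ⟨a, ha, ha1, u, hu, hind, v, hv, hv1, hav, huv⟩ :=
    exists_fixed_pair_of_card_gt hp hq hpq hEbp hEbcard
      ((hN₁.comap_subtype (K := X)).map π) (hNb_ne N₁ hDN₁ hN₁D) (hEb_norm N₁ hEN₁)
  -- the subgroup generated by `a` and `u`
  have hBE : zpowers a ⊔ zpowers u ≤ (E₀.subgroupOf X).map π :=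
    sup_le ((zpowers_le).mpr ha) ((zpowers_le).mpr hu)
  have hBcomm : IsMulCommutative ↥(zpowers a ⊔ zpowers u) :=
    ⟨⟨fun x y => Subtype.ext (hEbc x.1 (hBE x.2) y.1 (hBE y.2))⟩⟩
  have hBcard : p < Nat.card ↥(zpowers a ⊔ zpowers u) := by
    have h1 : Nat.card (zpowers a) = p := by
      rw [Nat.card_zpowers]
      exact orderOf_eq_prime (hEbp a ha) ha1
    have h2 : zpowers a < zpowers a ⊔ zpowers u := by
      refine lt_of_le_of_ne le_sup_left (fun h => ?_)
      have h3 : u⁻¹ ∈ zpowers a := by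
        rw [h]; exact inv_mem (Subgroup.mem_sup_right (mem_zpowers u))
      rw [← mem_powers_iff_mem_zpowers] at h3
      obtain ⟨k, hk⟩ := h3
      apply hind k
      have hk' : a ^ k = u⁻¹ := hk
      rw [hk', inv_mul_cancel]
    rw [← h1]
    exact card_lt_card_of_lt h2
  obtain ⟨x, hx, hx1, w, hw, hw1, hxw⟩ :=
    exists_fixed_of_card_gt hp hq hpq (fun y hy => hEbp y (hBE hy)) hBcard
      ((hN₂.comap_subtype (K := X)).map π) (hNb_ne N₂ hDN₂ hN₂D)
      (hBE.trans (hEb_norm N₂ hEN₂))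
  have hxv : x * v = v * x := by
    have h1 : zpowers a ⊔ zpowers u ≤ centralizer ({v} : Set (↥X ⧸ D.subgroupOf X)) := by
      refine sup_le ((zpowers_le).mpr ?_) ((zpowers_le).mpr ?_)
      · rw [Subgroup.mem_centralizer_iff]
        rintro h (rfl : h = v)
        exact hav.symm
      · rw [Subgroup.mem_centralizer_iff]
        rintro h (rfl : h = v)
        exact huv.symm
    exact ((Subgroup.mem_centralizer_iff.mp (h1 hx)) v rfl).symm
  obtain ⟨x', hx'0, rfl⟩ := hBE hx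
  have hx' : (x' : G) ∈ E₀ := Subgroup.mem_subgroupOf.mp hx'0
  have hx'1 : (x' : G) ≠ 1 := by
    intro h
    apply hx1
    have : x' = 1 := Subtype.ext h
    rw [this, map_one]
  have hx'p : x' ^ p = 1 := Subtype.ext (by
    rw [Subgroup.coe_pow, Subgroup.coe_one]; exact hE₀p _ hx')
  -- lifting fixed points
  have hlift : ∀ N : Subgroup G, D ≤ N → ∀ n ∈ (N.subgroupOf X).map π, n ≠ 1 →
      π x' * n = n * π x' → ∃ v ∈ N, v ∉ D ∧ (x' : G) * v = v * (x' : G) := by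
    intro N hDN n hn hn1 hcomm
    have hcopD : (Nat.card (D.subgroupOf X)).Coprime p := by
      have hDX : IsPGroup q (D.subgroupOf X) := hDq.comap_subtype (K := X)
      obtain ⟨j, hj⟩ := IsPGroup.iff_card.mp hDX
      rw [hj]
      exact Nat.Coprime.pow_left j ((Nat.coprime_primes hq hp).mpr (Ne.symm hpq))
    have hzp : IsPGroup p (zpowers x') :=
      isPGroup_zpowers_of_pow_eq_one (n := 1) (by rw [pow_one]; exact hx'p)
    have hS := (S3800.result (D.subgroupOf X) hcopD (zpowers x') hzp).2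
    rw [← hπ] at hS
    have hnc : n ∈ centralizer (((zpowers x').map π : Subgroup _) : Set (↥X ⧸ D.subgroupOf X)) := by
      rw [Subgroup.mem_centralizer_iff]
      rintro _ ⟨z, hz, rfl⟩
      obtain ⟨k, rfl⟩ := Subgroup.mem_zpowers_iff.mp hz
      rw [map_zpow]
      exact ((show Commute (π x') n from hcomm).zpow_left k).eq
    rw [hS] at hnc
    obtain ⟨c, hc, hcn⟩ := hnc
    obtain ⟨n', hn'0, hn'n⟩ := hn
    have hn' : (n' : G) ∈ N := Subgroup.mem_subgroupOf.mp hn'0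
    have h1 : π (n'⁻¹ * c) = 1 := by rw [map_mul, map_inv, hcn, hn'n, inv_mul_cancel]
    rw [hker] at h1
    have h2 : (c : G) ∈ N := by
      have h3 : (c : G) = (n' : G) * ((n'⁻¹ * c : ↥X) : G) := by
        rw [Subgroup.coe_mul, Subgroup.coe_inv]; group
      rw [h3]
      exact mul_mem hn' (hDN h1)
    refine ⟨c, h2, fun hcD => hn1 ?_, ?_⟩
    · rw [← hcn, hker]; exact hcD
    · have h4 := (Subgroup.mem_centralizer_iff.mp hc) x' (mem_zpowers x')
      have h5 := congrArg Subtype.val h4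
      rwa [Subgroup.coe_mul, Subgroup.coe_mul] at h5
  exact ⟨x', hx', hx'1, hlift N₁ hDN₁.le v hv hv1 hxv, hlift N₂ hDN₂.le w hw hw1 hxw⟩

omit [Finite G] [Fact p.Prime] in
theorem le_normalizer_sup {A H K : Subgroup G} (hH : A ≤ normalizer (H : Set G))
    (hK : A ≤ normalizer (K : Set G)) : A ≤ normalizer ((H ⊔ K : Subgroup G) : Set G) := by
  intro a ha
  rw [mem_normalizer_iff_conj_smul_eq, Subgroup.smul_sup,
    mem_normalizer_iff_conj_smul_eq.mp (hH ha), mem_normalizer_iff_conj_smul_eq.mp (hK ha)]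

omit [Finite G] [Fact p.Prime] in
theorem card_sup_dvd_of_le_normalizer {H D : Subgroup G} (hHD : H ≤ normalizer (D : Set G)) :
    Nat.card ↥(H ⊔ D) ∣ Nat.card H * Nat.card D := by
  have hX : H ⊔ D ≤ normalizer (D : Set G) := sup_le hHD le_normalizer
  have hn : (D.subgroupOf (H ⊔ D)).Normal := Subgroup.normal_subgroupOf_of_le_normalizer hX
  have h1 := card_sup_dvd_card_mul_card (H.subgroupOf (H ⊔ D)) (D.subgroupOf (H ⊔ D))
  rw [← Subgroup.subgroupOf_sup le_sup_left le_sup_right, Subgroup.subgroupOf_self,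
    Subgroup.card_top, card_subgroupOf_of_le le_sup_left, card_subgroupOf_of_le le_sup_right] at h1
  exact h1

/-- **Key containment**: for `a ∈ E`, `a ≠ 1`, every `E`-invariant `p'`-subgroup of `C_G(a)`
lies in `O_{p'}(C_G(a))`. -/
theorem inv_le_pPrimeCore_centralizer
    (hloc : ∀ T : Subgroup G, IsPGroup p T → T ≠ ⊥ →
      IsPConstrained p ↥(normalizer (T : Set G)))
    (hcl : p ≠ 2 ∨ ∀ T : Subgroup G, IsPGroup p T →
      ∀ x ∈ T, ∀ y ∈ T, ∀ z ∈ T, ⁅x, y⁆ * z = z * ⁅x, y⁆)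
    {E : Subgroup G} (hEp : IsPGroup p E) (hEc : ∀ x ∈ E, ∀ y ∈ E, x * y = y * x)
    (hfull : ∀ x ∈ centralizer (E : Set G), IsPGroup p (zpowers x) → x ∈ E)
    {a : G} (ha : a ∈ E) (ha1 : a ≠ 1) {Y : Subgroup G}
    (hYa : Y ≤ centralizer (zpowers a : Set G))
    (hY : (Nat.card Y).Coprime p) (hEY : E ≤ normalizer (Y : Set G)) :
    Y ≤ (pPrimeCore p ↥(centralizer (zpowers a : Set G))).map
      (centralizer (zpowers a : Set G)).subtype := by
  have hzp : IsPGroup p (zpowers a) := hEp.to_le ((zpowers_le).mpr ha)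
  have hzne : zpowers a ≠ ⊥ := by
    rw [Ne, zpowers_eq_bot]; exact ha1
  have hcon : IsPConstrained p ↥(centralizer (zpowers a : Set G)) :=
    Helper54.isPConstrained_local_in (hloc _ hzp hzne) (zpowers a) hzp le_normalizer _
      (centralizer_le_normalizer _) inf_le_left (centralizer_le_normalizer _) (Or.inr le_rfl)
  obtain ⟨Ca, hCa⟩ : ∃ Ca : Subgroup G, Ca = centralizer (zpowers a : Set G) := ⟨_, rfl⟩
  rw [← hCa] at hYa hcon ⊢
  have hECa : E ≤ Ca := by
    rw [hCa]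
    intro e he
    rw [Subgroup.mem_centralizer_iff]
    intro z hz
    obtain ⟨k, rfl⟩ := Subgroup.mem_zpowers_iff.mp hz
    exact ((show Commute a e from hEc a ha e he).zpow_left k).eq
  have key := inv_le_pPrimeCore (C := ↥Ca) hcon
    (hcl.imp id (fun h T hT x hx y hy z hz => Subtype.ext (by
      have h1 := h (T.map Ca.subtype) (hT.map _) x ⟨x, hx, rfl⟩ y ⟨y, hy, rfl⟩ z ⟨z, hz, rfl⟩
      have e : ((⁅x, y⁆ : ↥Ca) : G) = ⁅(x : G), (y : G)⁆ := map_commutatorElement Ca.subtype x y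
      rw [Subgroup.coe_mul, Subgroup.coe_mul, e]
      exact h1)))
    (E := E.subgroupOf Ca) (Y := Y.subgroupOf Ca) hEp.comap_subtype
    (fun x hx y hy => Subtype.ext
      (hEc _ (Subgroup.mem_subgroupOf.mp hx) _ (Subgroup.mem_subgroupOf.mp hy)))
    (by
      intro x hx hxp
      rw [Subgroup.mem_subgroupOf]
      apply hfull
      · rw [Subgroup.mem_centralizer_iff]
        intro e he
        have h2 := (Subgroup.mem_centralizer_iff.mp hx) ⟨e, hECa he⟩
          (Subgroup.mem_subgroupOf.mpr he)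
        exact congrArg Subtype.val h2
      · have h3 : (zpowers x).map Ca.subtype = zpowers (x : G) := by
          rw [MonoidHom.map_zpowers]; rfl
        rw [← h3]
        exact hxp.map _)
    (by rw [card_subgroupOf_of_le hYa]; exact hY)
    (by
      intro e he
      rw [Subgroup.mem_subgroupOf] at he
      rw [mem_normalizer_iff]
      intro y
      rw [Subgroup.mem_subgroupOf, Subgroup.mem_subgroupOf]
      exact mem_normalizer_iff.mp (hEY he) y)
  intro y hy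
  exact ⟨⟨y, hYa hy⟩, key (Subgroup.mem_subgroupOf.mpr hy), rfl⟩

/-- **Thompson's transitivity theorem**, inductive form. -/
theorem thompson_transitivity_aux
    (hloc : ∀ T : Subgroup G, IsPGroup p T → T ≠ ⊥ →
      IsPConstrained p ↥(normalizer (T : Set G)))
    (hcl : p ≠ 2 ∨ ∀ T : Subgroup G, IsPGroup p T →
      ∀ x ∈ T, ∀ y ∈ T, ∀ z ∈ T, ⁅x, y⁆ * z = z * ⁅x, y⁆)
    {E : Subgroup G} (hEp : IsPGroup p E) (hEc : ∀ x ∈ E, ∀ y ∈ E, x * y = y * x)
    (hfull : ∀ x ∈ centralizer (E : Set G), IsPGroup p (zpowers x) → x ∈ E)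
    {E₀ : Subgroup G} (hE₀E : E₀ ≤ E) (hE₀p : ∀ x ∈ E₀, x ^ p = 1)
    (hcard : p ^ 2 < Nat.card E₀) {q : ℕ} [Fact q.Prime] (hqp : q ≠ p) :
    ∀ (n : ℕ) (Q Q' : Subgroup G), Q ∈ maxInvSubgroups ⊤ E {q} →
      Q' ∈ maxInvSubgroups ⊤ E {q} → Nat.card G - Nat.card ↥(Q ⊓ Q') = n →
      ∃ k ∈ piCoreOf (primesNotDvd p) (centralizer (E : Set G)), Q' = MulAut.conj k • Q := by
  have hp : p.Prime := Fact.out
  have hq : q.Prime := Fact.out
  intro n
  induction n using Nat.strong_induction_on with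
  | _ n ih =>
  intro Q Q' hQ hQ' hn
  by_cases h1 : Q ≤ Q'
  · exact ⟨1, one_mem _, by rw [map_one, one_smul]; exact hQ.2 Q' hQ'.1 h1⟩
  by_cases h2 : Q' ≤ Q
  · exact ⟨1, one_mem _, by rw [map_one, one_smul]; exact (hQ'.2 Q hQ.1 h2).symm⟩
  obtain ⟨D, hD⟩ : ∃ D : Subgroup G, D = Q ⊓ Q' := ⟨_, rfl⟩
  rw [← hD] at hn
  have hDQ : D < Q := by
    rw [hD]; exact lt_of_le_of_ne inf_le_left (fun h => h1 (inf_eq_left.mp h))
  have hDQ' : D < Q' := by
    rw [hD]; exact lt_of_le_of_ne inf_le_right (fun h => h2 (inf_eq_right.mp h))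
  have hQq : IsPGroup q Q := isPGroup_of_primes hQ.1.2.1
  have hQ'q : IsPGroup q Q' := isPGroup_of_primes hQ'.1.2.1
  have hEQ : E ≤ normalizer (Q : Set G) := hQ.1.2.2
  have hEQ' : E ≤ normalizer (Q' : Set G) := hQ'.1.2.2
  have hED : E ≤ normalizer (D : Set G) := by
    rw [hD]; exact (le_inf hEQ hEQ').trans Subgroup.inf_normalizer_le_normalizer_inf
  have hEND : E ≤ normalizer ((normalizer (D : Set G) : Subgroup G) : Set G) :=
    hED.trans le_normalizer
  have hDN₁ : D < Q ⊓ normalizer (D : Set G) := by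
    obtain ⟨x, hxQ, hxN, hxD⟩ := exists_mem_normalizer_not_mem hq hQq hDQ
    exact lt_of_le_of_ne (le_inf hDQ.le le_normalizer) (fun h => hxD (h ▸ ⟨hxQ, hxN⟩))
  have hDN₂ : D < Q' ⊓ normalizer (D : Set G) := by
    obtain ⟨x, hxQ, hxN, hxD⟩ := exists_mem_normalizer_not_mem hq hQ'q hDQ'
    exact lt_of_le_of_ne (le_inf hDQ'.le le_normalizer) (fun h => hxD (h ▸ ⟨hxQ, hxN⟩))
  have hEN₁ : E ≤ normalizer ((Q ⊓ normalizer (D : Set G) : Subgroup G) : Set G) :=
    (le_inf hEQ hEND).trans Subgroup.inf_normalizer_le_normalizer_inf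
  have hEN₂ : E ≤ normalizer ((Q' ⊓ normalizer (D : Set G) : Subgroup G) : Set G) :=
    (le_inf hEQ' hEND).trans Subgroup.inf_normalizer_le_normalizer_inf
  obtain ⟨a, haE₀, ha1, ⟨v₁, hv₁N, hv₁D, hav₁⟩, ⟨v₂, hv₂N, hv₂D, hav₂⟩⟩ :=
    exists_common_fixed_mod (Ne.symm hqp) (fun x hx y hy => hEc x (hE₀E hx) y (hE₀E hy)) hE₀p
      hcard (hQq.to_le inf_le_left) (hQ'q.to_le inf_le_left) hDN₁ hDN₂ inf_le_right inf_le_right
      (hE₀E.trans hED) (hE₀E.trans hEN₁) (hE₀E.trans hEN₂)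
  have ha : a ∈ E := hE₀E haE₀
  obtain ⟨Ca, hCa⟩ : ∃ Ca : Subgroup G, Ca = centralizer (zpowers a : Set G) := ⟨_, rfl⟩
  obtain ⟨θ, hθ⟩ : ∃ θ : Subgroup G, θ = (pPrimeCore p ↥Ca).map Ca.subtype := ⟨_, rfl⟩
  have hECa : E ≤ Ca := by
    rw [hCa]
    intro e he
    rw [Subgroup.mem_centralizer_iff]
    intro z hz
    obtain ⟨k, rfl⟩ := Subgroup.mem_zpowers_iff.mp hz
    exact ((show Commute a e from hEc a ha e he).zpow_left k).eq
  have hmemCa : ∀ {v : G}, a * v = v * a → v ∈ Ca := by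
    intro v hv
    rw [hCa, Subgroup.mem_centralizer_iff]
    intro z hz
    obtain ⟨k, rfl⟩ := Subgroup.mem_zpowers_iff.mp hz
    exact ((show Commute a v from hv).zpow_left k).eq
  have hCaθ : Ca ≤ normalizer (θ : Set G) := by
    rw [Subgroup.le_normalizer_iff, hθ]
    rintro x hx _ ⟨y, hy, rfl⟩
    exact ⟨⟨x, hx⟩ * y * ⟨x, hx⟩⁻¹, (pPrimeCore_normal p ↥Ca).conj_mem y hy ⟨x, hx⟩, rfl⟩
  have hEθ : E ≤ normalizer (θ : Set G) := hECa.trans hCaθ
  have hθp : (Nat.card θ).Coprime p := by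
    rw [hθ, Subgroup.card_map_of_injective Ca.subtype_injective]
    exact Helper22.card_pPrimeCore_coprime p ↥Ca
  have hqcop : ∀ {N : Subgroup G}, IsPGroup q N → (Nat.card N).Coprime p := by
    intro N hN
    obtain ⟨j, hj⟩ := IsPGroup.iff_card.mp hN
    rw [hj]
    exact Nat.Coprime.pow_left j ((Nat.coprime_primes hq hp).mpr hqp)
  have hC : ∀ N : Subgroup G, IsPGroup q N → E ≤ normalizer (N : Set G) → N ⊓ Ca ≤ θ := by
    intro N hN hEN
    have hnorm : E ≤ normalizer ((N ⊓ Ca : Subgroup G) : Set G) :=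
      (le_inf hEN (hECa.trans le_normalizer)).trans Subgroup.inf_normalizer_le_normalizer_inf
    subst hCa
    rw [hθ]
    exact inv_le_pPrimeCore_centralizer hloc hcl hEp hEc hfull ha ha1 inf_le_right
      (hqcop (hN.to_le inf_le_left)) hnorm
  -- the group `M = (θ ∩ N(D)) D`
  obtain ⟨M, hM⟩ : ∃ M : Subgroup G, M = (θ ⊓ normalizer (D : Set G)) ⊔ D := ⟨_, rfl⟩
  have hEM : E ≤ normalizer (M : Set G) := by
    rw [hM]
    exact le_normalizer_sup ((le_inf hEθ hEND).trans Subgroup.inf_normalizer_le_normalizer_inf) hED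
  have hMp : (Nat.card M).Coprime p := by
    rw [hM]
    refine Nat.Coprime.coprime_dvd_left (card_sup_dvd_of_le_normalizer inf_le_right) ?_
    exact Nat.Coprime.mul_left
      (Nat.Coprime.coprime_dvd_left (Subgroup.card_dvd_of_le inf_le_left) hθp)
      (hqcop (hQq.to_le hDQ.le))
  have hMcop : (Nat.card E).Coprime (Nat.card M) := by
    obtain ⟨j, hj⟩ := IsPGroup.iff_card.mp hEp
    rw [hj]
    exact Nat.Coprime.pow_left j hMp.symm
  have hEsolv : Group.IsSolvable ↥E := by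
    have : Group.IsNilpotent ↥E := hEp.isNilpotent
    infer_instance
  -- the two `E`-invariant `q`-subgroups of `M`
  have hU : ∀ N : Subgroup G, N ≤ normalizer (D : Set G) → IsPGroup q N →
      E ≤ normalizer (N : Set G) → D ≤ N →
      D ⊔ N ⊓ Ca ≤ M ∧ IsPGroup q ↥(D ⊔ N ⊓ Ca) ∧
        E ≤ normalizer ((D ⊔ N ⊓ Ca : Subgroup G) : Set G) := by
    intro N hND hN hEN hDN
    refine ⟨?_, ?_, ?_⟩
    · rw [hM]
      exact sup_le le_sup_right
        (le_trans (le_inf (hC N hN hEN) (inf_le_left.trans hND)) le_sup_left)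
    · exact hN.to_le (sup_le hDN inf_le_left)
    · exact le_normalizer_sup hED
        ((le_inf hEN (hECa.trans le_normalizer)).trans Subgroup.inf_normalizer_le_normalizer_inf)
  obtain ⟨hU₁M, hU₁q, hEU₁⟩ := hU _ inf_le_right (hQq.to_le inf_le_left) hEN₁ hDN₁.le
  obtain ⟨hU₂M, hU₂q, hEU₂⟩ := hU _ inf_le_right (hQ'q.to_le inf_le_left) hEN₂ hDN₂.le
  obtain ⟨S₁, hS₁, hU₁S₁, hES₁⟩ :=
    exists_invariant_sylow_ge hEM hMcop (Or.inl hEsolv) hU₁M hU₁q hEU₁
  obtain ⟨S₂, hS₂, hU₂S₂, hES₂⟩ :=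
    exists_invariant_sylow_ge hEM hMcop (Or.inl hEsolv) hU₂M hU₂q hEU₂
  obtain ⟨c, hc, hcS⟩ := exists_conj_invariant_sylow hEM hMcop (Or.inl hEsolv) hS₁ hS₂ hES₁ hES₂
  have hcK : c ∈ piCoreOf (primesNotDvd p) (centralizer (E : Set G)) :=
    le_piCoreOf_centralizer hEp hEc hfull (Y := M ⊓ centralizer (E : Set G)) inf_le_right
      (Nat.Coprime.coprime_dvd_left (Subgroup.card_dvd_of_le inf_le_left) hMp) hc
  have hcN : c ∈ normalizer (E : Set G) := centralizer_le_normalizer _ hc.2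
  have hS₁inv : S₁ ∈ invSubgroups ⊤ E {q} :=
    ⟨le_top, primes_of_isPGroup hq (isPGroup_of_mem_sylowSet hS₁), hES₁⟩
  obtain ⟨Q₁', hQ₁', hS₁Q₁'⟩ := exists_maxInv_ge hS₁inv
  have hcardlt : ∀ {X : Subgroup G}, D < X → Nat.card G - Nat.card ↥X < n := by
    intro X hX
    have h3 := card_lt_card_of_lt hX
    have h4 : Nat.card ↥X ≤ Nat.card G := Subgroup.card_le_card_group X
    omega
  have hv₁U : v₁ ∈ D ⊔ (Q ⊓ normalizer (D : Set G)) ⊓ Ca :=
    Subgroup.mem_sup_right ⟨hv₁N, hmemCa hav₁⟩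
  have hv₂U : v₂ ∈ D ⊔ (Q' ⊓ normalizer (D : Set G)) ⊓ Ca :=
    Subgroup.mem_sup_right ⟨hv₂N, hmemCa hav₂⟩
  have hlt1 : D < Q ⊓ Q₁' := by
    refine lt_of_le_of_ne (le_inf hDQ.le (le_sup_left.trans (hU₁S₁.trans hS₁Q₁'))) (fun h => ?_)
    apply hv₁D
    rw [h]
    exact ⟨hv₁N.1, hS₁Q₁' (hU₁S₁ hv₁U)⟩
  obtain ⟨k₁, hk₁, hk₁Q⟩ := ih _ (hcardlt hlt1) Q Q₁' hQ hQ₁' rfl
  have hQc := conj_mem_maxInvSubgroups hcN hQ₁'
  have hS₂le : S₂ ≤ MulAut.conj c • Q₁' := by
    rw [← hcS]; exact conj_smul_le_conj_smul hS₁Q₁'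
  have hlt2 : D < (MulAut.conj c • Q₁') ⊓ Q' := by
    refine lt_of_le_of_ne (le_inf (le_sup_left.trans (hU₂S₂.trans hS₂le)) hDQ'.le) (fun h => ?_)
    apply hv₂D
    rw [h]
    exact ⟨hS₂le (hU₂S₂ hv₂U), hv₂N.1⟩
  obtain ⟨k₂, hk₂, hk₂Q⟩ := ih _ (hcardlt hlt2) (MulAut.conj c • Q₁') Q' hQc hQ' rfl
  refine ⟨k₂ * c * k₁, mul_mem (mul_mem hk₂ hcK) hk₁, ?_⟩
  rw [hk₂Q, hk₁Q, conj_smul_conj_smul, conj_smul_conj_smul]

omit [Finite G] [Fact p.Prime] in
/-- In a nilpotent group of class at most two, commutators are central. -/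
theorem commutator_central_of_nilpotencyClass_le_two {S : Type*} [Group S]
    (hn : Group.IsNilpotent S) (h : Group.nilpotencyClass S ≤ 2) (x y z : S) :
    ⁅x, y⁆ * z = z * ⁅x, y⁆ := by
  have h1 : Subgroup.upperCentralSeries S 2 = ⊤ :=
    Subgroup.upperCentralSeries_eq_top_iff_nilpotencyClass_le.mpr h
  have h2 : x ∈ Subgroup.upperCentralSeries S (1 + 1) := by rw [h1]; trivial
  rw [Subgroup.mem_upperCentralSeries_succ_iff] at h2
  have h3 := h2 y
  rw [Subgroup.upperCentralSeries_one, Subgroup.mem_center_iff] at h3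
  exact (h3 z).symm

/-- **Thompson's transitivity theorem**: in a finite group whose `p`-local subgroups are
`p`-constrained (with Sylow `2`-subgroups of class at most two when `p = 2`), if `E` is an
abelian `p`-subgroup of rank at least three containing every `p`-element of `C_G(E)`, then
`O_{p'}(C_G(E))` is transitive on the maximal `E`-invariant `q`-subgroups, `q ≠ p`. -/
theorem thompson_transitivity
    (hloc : ∀ T : Subgroup G, IsPGroup p T → T ≠ ⊥ →
      IsPConstrained p ↥(normalizer (T : Set G)))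
    (h2 : p = 2 → ∀ S : Sylow p G, Group.IsNilpotent (S : Subgroup G) ∧
      Group.nilpotencyClass (S : Subgroup G) ≤ 2)
    {E : Subgroup G} (hEp : IsPGroup p E) (hEc : IsMulCommutative E) (hE3 : ¬ PRankLE p 2 ↥E)
    (hfull : ∀ x ∈ centralizer (E : Set G), IsPGroup p (zpowers x) → x ∈ E)
    {q : ℕ} [Fact q.Prime] (hqp : q ≠ p) {Q₁ Q₂ : Subgroup G}
    (h₁ : Q₁ ∈ maxInvSubgroups ⊤ E {q}) (h₂ : Q₂ ∈ maxInvSubgroups ⊤ E {q}) :
    ∃ k ∈ piCoreOf (primesNotDvd p) (centralizer (E : Set G)),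
      Q₂ = Q₁.map (MulAut.conj k).toMonoidHom := by
  have hEc' : ∀ x ∈ E, ∀ y ∈ E, x * y = y * x := fun x hx y hy =>
    congrArg Subtype.val (mul_comm' (⟨x, hx⟩ : ↥E) ⟨y, hy⟩)
  have hcl : p ≠ 2 ∨ ∀ T : Subgroup G, IsPGroup p T →
      ∀ x ∈ T, ∀ y ∈ T, ∀ z ∈ T, ⁅x, y⁆ * z = z * ⁅x, y⁆ := by
    by_cases hp2 : p = 2
    · right
      intro T hT x hx y hy z hz
      obtain ⟨S, hS⟩ := hT.exists_le_sylow
      obtain ⟨hn, hc⟩ := h2 hp2 S
      have h3 := commutator_central_of_nilpotencyClass_le_two hn hc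
        (⟨x, hS hx⟩ : ↥(S : Subgroup G)) ⟨y, hS hy⟩ ⟨z, hS hz⟩
      have h4 := congrArg Subtype.val h3
      have e : ((⁅(⟨x, hS hx⟩ : ↥(S : Subgroup G)), ⟨y, hS hy⟩⁆ : ↥(S : Subgroup G)) : G) =
          ⁅x, y⁆ := map_commutatorElement (S : Subgroup G).subtype _ _
      rw [Subgroup.coe_mul, Subgroup.coe_mul, e] at h4
      exact h4
    · exact Or.inl hp2
  unfold PRankLE at hE3
  push Not at hE3
  obtain ⟨A, hAc, hAp, hAcard⟩ := hE3
  have hE₀p : ∀ x ∈ A.map E.subtype, x ^ p = 1 := by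
    rintro _ ⟨x, hx, rfl⟩
    rw [← map_pow, hAp x hx, map_one]
  have hcard : p ^ 2 < Nat.card ↥(A.map E.subtype) := by
    rwa [Subgroup.card_map_of_injective E.subtype_injective]
  exact thompson_transitivity_aux hloc hcl hEp hEc' hfull (Subgroup.map_subtype_le A) hE₀p hcard
    hqp _ Q₁ Q₂ h₁ h₂ rfl

end ThompTrans

end Cfsg.Agent.Helper23
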