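/-
helper23: Bender–Glauberman Theorem 7.6: criteria for the transitivity hypothesis in a minimal
simple group of odd order.  Uses `inv_le_pPrimeCore` (invariant `p'`-subgroups of a
`p`-constrained group) and helper24's `S1462` (the `p`-length one version).
Everything lives in `Cfsg.Agent.Helper23`.
-/
import Cfsg.Agent.Helper23.ThompTrans
import Cfsg.Agent.Helper34.PCons1
import Cfsg.Agent.Helper22.SolvableCore
import Cfsg.Agent.S1462

set_option autoImplicit false

namespace Cfsg.Agent.Helper23

open Cfsg Subgroup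

universe u

/-- A finite solvable group is `p`-constrained. -/
theorem isPConstrained_of_isSolvable (p : ℕ) [Fact p.Prime] (X : Type*) [Group X] [Finite X]
    [Group.IsSolvable X] : IsPConstrained p X := by
  rw [Helper34.isPConstrained_iff_centralizer_pCore_le]
  have hb := Helper34.pPrimeCore_quotient_eq_bot p X
  have h1 := Helper22.centralizer_fittingSubgroup_le_of_isSolvable (G := X ⧸ pPrimeCore p X)
  rw [Helper34.fittingSubgroup_eq_pCore_of_pPrimeCore_eq_bot hb] at h1
  exact h1

variable {G : Type u} [Group G] [Finite G]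

/-- The transitivity hypothesis for a nontrivial proper `p`-subgroup `A`, from the statement
that `A`-invariant `p'`-subgroups of proper overgroups `X` of `A` lie in `O_{p'}(X)`. -/
theorem transitivityHypothesis_of_inv_le {p : ℕ} [Fact p.Prime] {A : Subgroup G}
    (hAp : IsPGroup p A) (hA1 : A ≠ ⊥) (hA2 : A ≠ ⊤)
    (h : ∀ X : Subgroup G, X ≠ ⊤ → A ≤ X → ∀ Y : Subgroup G, Y ≤ X → (Nat.card Y).Coprime p →
      A ≤ normalizer (Y : Set G) → Y.subgroupOf X ≤ pPrimeCore p ↥X) :
    TransitivityHypothesis A := by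
  have hp : p.Prime := Fact.out
  refine ⟨hA1, hA2, ?_⟩
  intro X hX hAX
  obtain ⟨n, hn⟩ := IsPGroup.iff_card.mp hAp
  have hn0 : n ≠ 0 := by
    rintro rfl
    rw [pow_zero] at hn
    exact hA1 (Subgroup.card_eq_one.mp hn)
  have hpA : p ∣ Nat.card A := by rw [hn]; exact dvd_pow_self p hn0
  have hmem : ∀ q : ℕ, q.Prime → q ≠ p → q ∈ primesNotDvd (Nat.card A) := by
    intro q hq hqp
    refine ⟨hq, ?_⟩
    rw [hn]
    intro hd
    exact hqp ((Nat.prime_dvd_prime_iff_eq hq hp).mp (hq.dvd_of_dvd_pow hd))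
  apply le_antisymm
  · apply sSup_le
    intro Y hY
    obtain ⟨hYX, hYπ, hAY⟩ := hY
    have hYc : (Nat.card Y).Coprime p := by
      rw [Nat.coprime_comm, Nat.Prime.coprime_iff_not_dvd hp]
      intro hd
      exact (hYπ p hp hd).2 hpA
    have h1 := h X hX hAX Y hYX hYc hAY
    have h2 : pPrimeCore p ↥X ≤ piCore (primesNotDvd (Nat.card A)) ↥X := by
      apply le_sSup
      refine ⟨inferInstance, ?_⟩
      intro q hq hqd
      apply hmem q hq
      rintro rfl
      have hc := Helper22.card_pPrimeCore_coprime q ↥X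
      rw [Nat.coprime_comm, Nat.Prime.coprime_iff_not_dvd hq] at hc
      exact hc hqd
    intro y hy
    exact ⟨⟨y, hYX hy⟩, h2 (h1 (by rw [Subgroup.mem_subgroupOf]; exact hy)), rfl⟩
  · apply le_sSup
    exact ⟨piCoreOf_le _ X, fun q hq hqd => mem_of_dvd_card_piCoreOf _ X hq hqd,
      hAX.trans (le_normalizer_piCoreOf _ X)⟩

/-- If `A ∈ SCN(P)` for a Sylow `p`-subgroup `P`, then every `p`-element of `C_G(A)` lies
in `A`. -/
theorem mem_of_mem_centralizer_of_isSCN {p : ℕ} [Fact p.Prime] (P : Sylow p G) {A : Subgroup G}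
    (hA : IsSCN (P : Subgroup G) A) {x : G} (hx : x ∈ centralizer (A : Set G))
    (hxp : IsPGroup p (zpowers x)) : x ∈ A := by
  obtain ⟨hAP, hPN, hPC⟩ := hA
  have hCN : centralizer (A : Set G) ≤ normalizer (A : Set G) := by
    intro c hc
    rw [Subgroup.mem_normalizer_iff]
    intro a
    have hc' := Subgroup.mem_centralizer_iff.mp hc
    constructor
    · intro ha
      rw [← hc' a ha, mul_assoc, mul_inv_cancel, mul_one]
      exact ha
    · intro ha
      have h1 := hc' _ ha
      have h2 : a = c * a * c⁻¹ := by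
        have h3 := congrArg (fun z => c⁻¹ * z) h1
        simp only [mul_assoc, inv_mul_cancel_left] at h3
        simpa [mul_assoc] using h3
      rw [h2]
      exact ha
  obtain ⟨N, hN⟩ : ∃ N : Subgroup G, N = normalizer (A : Set G) := ⟨_, rfl⟩
  rw [← hN] at hCN hPN
  obtain ⟨k, hk⟩ := hxp ⟨x, Subgroup.mem_zpowers x⟩
  have hk' : x ^ p ^ k = 1 := congrArg Subtype.val hk
  have hx'p : IsPGroup p (zpowers (⟨x, hCN hx⟩ : ↥N)) :=
    isPGroup_zpowers_of_pow_eq_one (n := k) (Subtype.ext hk')
  obtain ⟨Q, hQ⟩ := hx'p.exists_le_sylow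
  obtain ⟨g, hg⟩ := MulAction.exists_smul_eq ↥N Q (P.subtype hPN)
  have h1 : g * ⟨x, hCN hx⟩ * g⁻¹ ∈ ((P.subtype hPN : Sylow p ↥N) : Subgroup ↥N) := by
    rw [← hg, Sylow.coe_subgroup_smul]
    exact ⟨_, hQ (Subgroup.mem_zpowers _), rfl⟩
  have h2 : (g : G) * x * (g : G)⁻¹ ∈ (P : Subgroup G) := by
    have h3 := h1
    rw [Sylow.coe_subtype, Subgroup.mem_subgroupOf] at h3
    exact h3
  have hgN : (g : G) ∈ normalizer (A : Set G) := by rw [← hN]; exact g.2
  have h3 : (g : G) * x * (g : G)⁻¹ ∈ centralizer (A : Set G) :=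
    (Subgroup.mem_normalizer_iff.mp (normalizer_le_normalizer_centralizer A hgN) x).mp hx
  have h4 : (g : G) * x * (g : G)⁻¹ ∈ A := by
    rw [← hPC]
    exact ⟨h2, h3⟩
  exact (Subgroup.mem_normalizer_iff.mp hgN x).mpr h4

omit [Finite G] in
theorem card_subgroupOf_of_le {Y X : Subgroup G} (hYX : Y ≤ X) :
    Nat.card (Y.subgroupOf X) = Nat.card Y :=
  Nat.card_congr (Subgroup.subgroupOfEquivOfLe hYX).toEquiv

omit [Finite G] in
theorem subgroupOf_le_normalizer_subgroupOf {A Y X : Subgroup G}
    (hAY : A ≤ normalizer (Y : Set G)) :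
    A.subgroupOf X ≤ normalizer ((Y.subgroupOf X : Subgroup ↥X) : Set ↥X) := by
  intro a ha
  rw [Subgroup.mem_normalizer_iff]
  intro y
  rw [Subgroup.mem_subgroupOf, Subgroup.mem_subgroupOf]
  exact Subgroup.mem_normalizer_iff.mp (hAY (Subgroup.mem_subgroupOf.mp ha)) y

/-- **Bender–Glauberman, Theorem 7.6**: criteria for the transitivity hypothesis in a minimal
simple group of odd order. -/
theorem transitivityHypothesis_criteria (hG : IsMinSimpleOddOrder G)
    (p : ℕ) [Fact p.Prime] (hp : p ∣ Nat.card G) (A : Subgroup G) (hAp : IsPGroup p A)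
    (hAc : IsMulCommutative A)
    (h : (∀ x ∈ Subgroup.centralizer (A : Set G), x ^ p = 1 ↔ x ∈ A) ∧
        (∀ H : Subgroup G, H ≠ ⊤ → PLengthLE p 1 H) ∨
      ∃ P : Sylow p G, IsSCN (P : Subgroup G) A ∧ ¬ PRankLE p 1 A) :
    TransitivityHypothesis A := by
  have hpp : p.Prime := Fact.out
  have hp2 : p ≠ 2 := by
    rintro rfl
    exact (Nat.not_even_iff_odd.mpr hG.1) (even_iff_two_dvd.mpr hp)
  have hcomm : ∀ a ∈ A, ∀ b ∈ A, a * b = b * a := by
    intro a ha b hb
    exact congrArg Subtype.val (hAc.is_comm.comm ⟨a, ha⟩ ⟨b, hb⟩)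
  have hA2 : A ≠ ⊤ := by
    rintro rfl
    apply hG.2.2.1
    constructor; constructor
    intro a b
    exact hcomm a (Subgroup.mem_top a) b (Subgroup.mem_top b)
  have hAcent : A ≤ centralizer (A : Set G) := by
    intro a ha
    rw [Subgroup.mem_centralizer_iff]
    intro b hb
    exact hcomm b hb a ha
  rcases h with ⟨h1, hpl⟩ | ⟨P, hSCN, hrk⟩
  · -- case (1)
    have hA1 : A ≠ ⊥ := by
      rintro rfl
      obtain ⟨x, hx⟩ := exists_prime_orderOf_dvd_card' p hp
      have hx1 : x ^ p = 1 := by rw [← hx]; exact pow_orderOf_eq_one x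
      have hxA : x ∈ (⊥ : Subgroup G) := by
        apply (h1 x ?_).mp hx1
        rw [Subgroup.mem_centralizer_iff]
        intro b hb
        rw [Subgroup.coe_bot, Set.mem_singleton_iff] at hb
        rw [hb, one_mul, mul_one]
      rw [Subgroup.mem_bot] at hxA
      rw [hxA, orderOf_one] at hx
      exact hpp.one_lt.ne hx
    apply transitivityHypothesis_of_inv_le hAp hA1 hA2
    intro X hX hAX Y hYX hYc hAY
    have : Group.IsSolvable ↥X := hG.2.2.2 X hX
    apply Cfsg.Agent.S1462.result (G := ↥X) p hp2 (hpl X hX) (A.subgroupOf X) (Y.subgroupOf X)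
    · constructor
      · constructor; constructor
        intro a b
        apply Subtype.ext
        apply Subtype.ext
        exact hcomm _ (Subgroup.mem_subgroupOf.mp a.2) _ (Subgroup.mem_subgroupOf.mp b.2)
      · intro a ha
        apply Subtype.ext
        exact (h1 _ (hAcent (Subgroup.mem_subgroupOf.mp ha))).mpr (Subgroup.mem_subgroupOf.mp ha)
    · intro B hB hAB
      apply le_antisymm ?_ hAB
      intro b hb
      rw [Subgroup.mem_subgroupOf]
      apply (h1 _ ?_).mp
      · have := hB.2 b hb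
        exact congrArg Subtype.val this
      · rw [Subgroup.mem_centralizer_iff]
        intro a ha
        have haB : (⟨a, hAX ha⟩ : ↥X) ∈ B := hAB (by rw [Subgroup.mem_subgroupOf]; exact ha)
        have := hB.1.is_comm.comm (⟨⟨a, hAX ha⟩, haB⟩ : ↥B) ⟨b, hb⟩
        exact congrArg (fun z : ↥B => ((z : ↥X) : G)) this
    · rw [card_subgroupOf_of_le hYX]
      exact hYc
    · exact subgroupOf_le_normalizer_subgroupOf hAY
  · -- case (2)
    have hA1 : A ≠ ⊥ := by
      rintro rfl
      apply hrk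
      intro B _ _
      have h1 : Nat.card B = 1 := by
        have : Subsingleton ↥(⊥ : Subgroup G) := inferInstance
        have : Subsingleton ↥B := ⟨fun a b => Subtype.ext (Subsingleton.elim _ _)⟩
        exact Nat.card_unique
      rw [h1]
      exact Nat.one_le_pow _ _ hpp.pos
    apply transitivityHypothesis_of_inv_le hAp hA1 hA2
    intro X hX hAX Y hYX hYc hAY
    have : Group.IsSolvable ↥X := hG.2.2.2 X hX
    apply inv_le_pPrimeCore (isPConstrained_of_isSolvable p ↥X) (Or.inl hp2)
      (E := A.subgroupOf X)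
    · exact hAp.comap_subtype
    · intro a ha b hb
      apply Subtype.ext
      exact hcomm _ (Subgroup.mem_subgroupOf.mp ha) _ (Subgroup.mem_subgroupOf.mp hb)
    · intro x hx hxp
      rw [Subgroup.mem_subgroupOf]
      apply mem_of_mem_centralizer_of_isSCN P hSCN
      · rw [Subgroup.mem_centralizer_iff]
        intro a ha
        have := Subgroup.mem_centralizer_iff.mp hx ⟨a, hAX ha⟩
          (by rw [SetLike.mem_coe, Subgroup.mem_subgroupOf]; exact ha)
        exact congrArg Subtype.val this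
      · obtain ⟨k, hk⟩ := hxp ⟨x, Subgroup.mem_zpowers x⟩
        have hk' : x ^ p ^ k = 1 := congrArg Subtype.val hk
        exact isPGroup_zpowers_of_pow_eq_one (n := k) (congrArg Subtype.val hk')
    · rw [card_subgroupOf_of_le hYX]
      exact hYc
    · exact subgroupOf_le_normalizer_subgroupOf hAY

end Cfsg.Agent.Helper23
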