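/-
helper23: solvable groups of odd order whose Fitting subgroup has rank at most two
(Bender–Glauberman 4.20): the commutator subgroup lies in the Fitting subgroup, and subgroups
whose order involves only primes larger than `r` centralize `r`-groups of rank at most two.
Everything lives in `Cfsg.Agent.Helper23`.
-/
import Cfsg.Agent.Helper23.Rank2Sol
import Cfsg.Agent.Helper22.SolvableCore
import Cfsg.Agent.Helper22.Fitting

set_option autoImplicit false

namespace Cfsg.Agent.Helper23

open Cfsg Subgroup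
open scoped commutatorElement

universe u

variable {G : Type u} [Group G]

/-- The `p`-rank does not increase on passing to a smaller subgroup. -/
theorem pRankLE_of_le {p k : ℕ} {H K : Subgroup G} (h : H ≤ K) (hr : PRankLE p k ↥K) :
    PRankLE p k ↥H := by
  intro B hBc hBp
  have hinj : Function.Injective (Subgroup.inclusion h) := Subgroup.inclusion_injective h
  have h1 : IsMulCommutative (B.map (Subgroup.inclusion h)) := by
    refine ⟨⟨fun a b => Subtype.ext ?_⟩⟩
    obtain ⟨x, hx, hxa⟩ := a.2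
    obtain ⟨y, hy, hyb⟩ := b.2
    show (a : ↥K) * b = b * a
    rw [← hxa, ← hyb, ← map_mul, ← map_mul]
    have := hBc.is_comm.comm (⟨x, hx⟩ : B) ⟨y, hy⟩
    exact congrArg (fun z : B => Subgroup.inclusion h (z : H)) this
  have h2 : ∀ a ∈ B.map (Subgroup.inclusion h), a ^ p = 1 := by
    rintro _ ⟨x, hx, rfl⟩
    rw [← map_pow, hBp x hx, map_one]
  have := hr (B.map (Subgroup.inclusion h)) h1 h2
  rwa [Subgroup.card_map_of_injective hinj] at this

/-- A `q`-subgroup of the Fitting subgroup lies in `O_q(G)`. -/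
theorem le_pCore_of_le_fittingSubgroup [Finite G] (q : ℕ) [Fact q.Prime] {Y : Subgroup G}
    (hY : Y ≤ fittingSubgroup G) (hq : IsPGroup q Y) : Y ≤ pCore q G := by
  have hnil : Group.IsNilpotent ↥(fittingSubgroup G) :=
    Cfsg.Agent.Helper22.fittingSubgroup_isNilpotent G
  have hFn : (fittingSubgroup G).Normal := Cfsg.Agent.Helper22.fittingSubgroup_normal G
  have hY' : IsPGroup q (Y.subgroupOf (fittingSubgroup G)) := hq.comap_subtype
  obtain ⟨P, hP⟩ := hY'.exists_le_sylow
  have htfae := (Group.isNilpotent_of_finite_tfae (G := ↥(fittingSubgroup G))).out 0 3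
  have hPn : (P : Subgroup ↥(fittingSubgroup G)).Normal := htfae.mp hnil q inferInstance P
  have hsub : ((P : Subgroup ↥(fittingSubgroup G)).map (fittingSubgroup G).subtype).IsSubnormal :=
    Subgroup.IsSubnormal.trans' hPn.isSubnormal hFn.isSubnormal
  have hPp : IsPGroup q ((P : Subgroup ↥(fittingSubgroup G)).map (fittingSubgroup G).subtype) :=
    P.2.map _
  have h1 := Cfsg.Agent.Helper22.le_pCore_of_isSubnormal q hsub hPp
  intro y hy
  apply h1
  exact ⟨⟨y, hY hy⟩, hP (Subgroup.mem_subgroupOf.mpr hy), rfl⟩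

/-- `O_r(G)` and `O_q(G)` centralize each other for distinct primes. -/
theorem pCore_le_centralizer_pCore [Finite G] {r q : ℕ} [Fact r.Prime] [Fact q.Prime]
    (hrq : r ≠ q) : pCore r G ≤ centralizer (pCore q G : Set G) := by
  rw [← Subgroup.commutator_eq_bot_iff_le_centralizer, eq_bot_iff]
  refine (Subgroup.commutator_le_inf _ _).trans ?_
  have h1 : IsPGroup r (pCore r G) := Cfsg.Agent.Helper24.isPGroup_pCore r G
  have h2 : IsPGroup q (pCore q G) := Cfsg.Agent.Helper24.isPGroup_pCore q G
  exact (IsPGroup.disjoint_of_ne r q hrq _ _ h1 h2).le_bot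

/-- A subgroup containing the commutator subgroup is normal. -/
theorem normal_of_commutator_le {N : Subgroup G} (h : commutator G ≤ N) : N.Normal := by
  refine ⟨fun n hn g => ?_⟩
  have h1 : ⁅g, n⁆ ∈ commutator G := by
    rw [commutator_def]
    exact Subgroup.commutator_mem_commutator (Subgroup.mem_top g) (Subgroup.mem_top n)
  have h2 : g * n * g⁻¹ = ⁅g, n⁆ * n := by
    rw [commutatorElement_def]; group
  rw [h2]
  exact N.mul_mem (h h1) hn

/-- An element of a subgroup `M` normalizing `H ≤ M` whose order is prime to the index of `H` in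
`M` lies in `H`. -/
theorem mem_of_coprime_relIndex [Finite G] {H M : Subgroup G}
    (hMH : M ≤ normalizer (H : Set G)) {x : G} (hx : x ∈ M) {a : ℕ} (hxa : x ^ a = 1)
    (hcop : a.Coprime (H.relIndex M)) : x ∈ H := by
  haveI : (H.subgroupOf M).Normal := Subgroup.normal_subgroupOf_of_le_normalizer hMH
  have h1 : (QuotientGroup.mk' (H.subgroupOf M) ⟨x, hx⟩) ^ a = 1 := by
    rw [← map_pow]
    have : (⟨x, hx⟩ : ↥M) ^ a = 1 := Subtype.ext (by simpa using hxa)
    rw [this, map_one]
  have h2 : (QuotientGroup.mk' (H.subgroupOf M) ⟨x, hx⟩) ^ (H.relIndex M) = 1 := by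
    have : H.relIndex M = Nat.card (↥M ⧸ H.subgroupOf M) := by
      rw [Subgroup.relIndex, Subgroup.index_eq_card]
    rw [this]
    exact pow_card_eq_one'
  have h3 : orderOf (QuotientGroup.mk' (H.subgroupOf M) ⟨x, hx⟩) ∣ 1 := by
    rw [← Nat.Coprime.gcd_eq_one hcop]
    exact Nat.dvd_gcd (orderOf_dvd_of_pow_eq_one h1) (orderOf_dvd_of_pow_eq_one h2)
  have h4 : QuotientGroup.mk' (H.subgroupOf M) ⟨x, hx⟩ = 1 :=
    orderOf_eq_one_iff.mp (Nat.dvd_one.mp h3)
  have h5 : (⟨x, hx⟩ : ↥M) ∈ H.subgroupOf M := by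
    rwa [QuotientGroup.mk'_apply, QuotientGroup.eq_one_iff] at h4
  exact Subgroup.mem_subgroupOf.mp h5

/-- A `2`-subgroup of a group of odd order is trivial. -/
theorem eq_bot_of_isPGroup_two_of_odd [Finite G] (hodd : Odd (Nat.card G)) {R : Subgroup G}
    (hR : IsPGroup 2 R) : R = ⊥ := by
  obtain ⟨n, hn⟩ := IsPGroup.iff_card.mp hR
  have h1 : Odd (Nat.card R) := hodd.of_dvd_nat (Subgroup.card_subgroup_dvd_card _)
  rw [hn] at h1
  have hn0 : n = 0 := by
    by_contra h
    exact (Nat.not_even_iff_odd.mpr h1) ((Nat.even_pow).mpr ⟨even_two, h⟩)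
  rw [hn0, pow_zero] at hn
  exact Subgroup.eq_bot_of_card_eq _ hn

/-- Every `q'`-subgroup of the commutator subgroup centralizes `O_q(G)` when the latter has rank
at most two and `G` has odd order. -/
theorem le_centralizer_pCore_of_le_commutator [Finite G] (hodd : Odd (Nat.card G)) (q : ℕ)
    [Fact q.Prime] (hr : PRankLE q 2 ↥(pCore q G)) {X : Subgroup G} (hX : X ≤ commutator G)
    (hcop : (Nat.card X).Coprime q) : X ≤ centralizer (pCore q G : Set G) := by
  have hRp : IsPGroup q (pCore q G) := Cfsg.Agent.Helper24.isPGroup_pCore q G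
  by_cases hq2 : q = 2
  · subst hq2
    rw [eq_bot_of_isPGroup_two_of_odd hodd hRp]
    intro x _
    rw [Subgroup.mem_centralizer_iff]
    intro h hh
    rw [Subgroup.mem_bot.mp hh, one_mul, mul_one]
  · have hAn : (⊤ : Subgroup G) ≤ normalizer ((pCore q G : Subgroup G) : Set G) := by
      rw [Subgroup.normalizer_eq_top_iff.mpr inferInstance]
    have hAodd : Odd (Nat.card (⊤ : Subgroup G)) := by rw [Subgroup.card_top]; exact hodd
    obtain ⟨h1, -⟩ := rank2_core q hq2 (pCore q G) ⊤ hRp hr hAn hAodd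
    exact h1 X (by rw [← commutator_def]; exact hX) hcop

/-- A subgroup `Y` of a solvable group of odd order whose order involves only primes larger than
`r` centralizes every `r`-subgroup of rank at most two which it normalizes. -/
theorem le_centralizer_of_primes_gt [Finite G] [Group.IsSolvable G] (hodd : Odd (Nat.card G))
    (r : ℕ) [Fact r.Prime] (R Y : Subgroup G) (hR : IsPGroup r R) (hr : PRankLE r 2 ↥R)
    (hYR : Y ≤ normalizer (R : Set G)) (hY : ∀ q : ℕ, q.Prime → q ∣ Nat.card Y → r < q) :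
    Y ≤ centralizer (R : Set G) := by
  have hr' : r.Prime := Fact.out
  by_cases hr2 : r = 2
  · subst hr2
    rw [eq_bot_of_isPGroup_two_of_odd hodd hR]
    intro x _
    rw [Subgroup.mem_centralizer_iff]
    intro h hh
    rw [Subgroup.mem_bot.mp hh, one_mul, mul_one]
  set H : Subgroup G := R ⊔ Y with hH
  have hRH : R ≤ H := le_sup_left
  have hYH : Y ≤ H := le_sup_right
  have hHR : H ≤ normalizer (R : Set G) := sup_le Subgroup.le_normalizer hYR
  have hR'n : (R.subgroupOf H).Normal := Subgroup.normal_subgroupOf_of_le_normalizer hHR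
  have hR'p : IsPGroup r (R.subgroupOf H) := hR.comap_subtype
  -- the index of `R` in `H` divides the order of `Y`
  have hidx : (R.subgroupOf H).index ∣ Nat.card Y := by
    have h1 : (R.subgroupOf H) ⊔ (Y.subgroupOf H) = ⊤ := by
      rw [← Subgroup.subgroupOf_sup hRH hYH]
      exact Subgroup.subgroupOf_self _
    have h2 := Subgroup.relIndex_sup_left (K := R.subgroupOf H) (H := Y.subgroupOf H)
    rw [h1, Subgroup.relIndex_top_right] at h2
    rw [h2]
    have h3 := Subgroup.relIndex_dvd_card (R.subgroupOf H) (Y.subgroupOf H)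
    rwa [natCard_subgroupOf_eq hYH] at h3
  have hidxcop : ((R.subgroupOf H).index).Coprime r := by
    rw [Nat.coprime_comm, Nat.Prime.coprime_iff_not_dvd hr']
    intro hd
    exact lt_irrefl r (hY r hr' (hd.trans hidx))
  -- every `r`-subgroup of `H` lies in `R`
  have hsub : ∀ B : Subgroup ↥H, IsPGroup r B → B ≤ R.subgroupOf H := by
    intro B hB
    have h1 : IsPGroup r (B ⊔ R.subgroupOf H : Subgroup ↥H) :=
      IsPGroup.to_sup_of_normal_right hB hR'p
    have h2 : (R.subgroupOf H).relIndex (B ⊔ R.subgroupOf H) = 1 := by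
      have h3 : (R.subgroupOf H).relIndex (B ⊔ R.subgroupOf H) ∣ (R.subgroupOf H).index :=
        Subgroup.relIndex_dvd_index_of_le le_sup_right
      have h4 : (R.subgroupOf H).relIndex (B ⊔ R.subgroupOf H) ∣
          Nat.card (B ⊔ R.subgroupOf H : Subgroup ↥H) := Subgroup.relIndex_dvd_card _ _
      obtain ⟨n, hn⟩ := IsPGroup.iff_card.mp h1
      rw [hn] at h4
      have h5 : ((R.subgroupOf H).relIndex (B ⊔ R.subgroupOf H)).Coprime (r ^ n) :=
        (Nat.Coprime.coprime_dvd_left h3 hidxcop).pow_right n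
      exact Nat.Coprime.eq_one_of_dvd h5 h4
    exact le_sup_left.trans (Subgroup.relIndex_eq_one.mp h2)
  -- the rank of `H`
  have hrank : PRankLE r 2 ↥H := by
    intro B hBc hBp
    have hBpg : IsPGroup r B := fun b => ⟨1, by
      rw [pow_one]
      exact Subtype.ext (by simpa using hBp b b.2)⟩
    have hBR := hsub B hBpg
    have h1 : Nat.card (B.map H.subtype) ≤ r ^ 2 := by
      refine pRank_internal hr (B.map H.subtype) ?_ ?_ ?_
      · rintro _ ⟨b, hb, rfl⟩
        exact Subgroup.mem_subgroupOf.mp (hBR hb)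
      · rintro _ ⟨b, hb, rfl⟩ _ ⟨c, hc, rfl⟩
        have := hBc.is_comm.comm (⟨b, hb⟩ : B) ⟨c, hc⟩
        exact congrArg (fun z : B => H.subtype (z : H)) this
      · rintro _ ⟨b, hb, rfl⟩
        rw [← map_pow, hBp b hb, map_one]
    rwa [Subgroup.card_map_of_injective H.subtype_injective] at h1
  have hHodd : Odd (Nat.card ↥H) := hodd.of_dvd_nat (Subgroup.card_subgroup_dvd_card H)
  obtain ⟨-, h2⟩ := rank2_solvable r hr2 (G := ↥H) hHodd hrank
  have hLcop : (Nat.card (pPrimeCore r ↥H)).Coprime r :=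
    Cfsg.Agent.Helper24.coprime_card_pPrimeCore r
  -- `Y` lies in `O_{r'}(H)`
  have hYL : Y.subgroupOf H ≤ pPrimeCore r ↥H := by
    have hmap : (Y.subgroupOf H).map (QuotientGroup.mk' (pPrimeCore r ↥H)) = ⊥ := by
      by_contra hne
      have hcard : Nat.card ((Y.subgroupOf H).map (QuotientGroup.mk' (pPrimeCore r ↥H))) ≠ 1 :=
        fun h => hne (Subgroup.card_eq_one.mp h)
      obtain ⟨q, hq, hqd⟩ := Nat.exists_prime_and_dvd hcard
      haveI : Fact q.Prime := ⟨hq⟩
      have hqY : q ∣ Nat.card Y := by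
        have := hqd.trans (Subgroup.card_map_dvd (Y.subgroupOf H)
          (QuotientGroup.mk' (pPrimeCore r ↥H)))
        rwa [natCard_subgroupOf_eq hYH] at this
      obtain ⟨g, hg⟩ := exists_prime_orderOf_dvd_card'
        (G := ↥((Y.subgroupOf H).map (QuotientGroup.mk' (pPrimeCore r ↥H)))) q hqd
      have h3 : (g : ↥H ⧸ pPrimeCore r ↥H) ^ q = 1 := by
        have := pow_orderOf_eq_one g
        rw [hg] at this
        exact_mod_cast congrArg Subtype.val this
      have h4 := h2 (g : ↥H ⧸ pPrimeCore r ↥H) q hq (hY q hq hqY) h3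
      have h5 : g = 1 := Subtype.ext h4
      rw [h5, orderOf_one] at hg
      exact hq.one_lt.ne hg
    have := (Subgroup.map_eq_bot_iff _).mp hmap
    rwa [QuotientGroup.ker_mk'] at this
  -- conclusion
  have hinf : R.subgroupOf H ⊓ pPrimeCore r ↥H = ⊥ :=
    Cfsg.Agent.Helper24.inf_eq_bot_of_isPGroup_of_coprime hR'p hLcop
  intro y hy
  rw [Subgroup.mem_centralizer_iff]
  intro x hx
  have hy' : (⟨y, hYH hy⟩ : ↥H) ∈ pPrimeCore r ↥H := hYL (Subgroup.mem_subgroupOf.mpr hy)
  have hx' : (⟨x, hRH hx⟩ : ↥H) ∈ R.subgroupOf H := Subgroup.mem_subgroupOf.mpr hx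
  have hc : ⁅(⟨x, hRH hx⟩ : ↥H), ⟨y, hYH hy⟩⁆ ∈ R.subgroupOf H ⊓ pPrimeCore r ↥H := by
    refine Subgroup.mem_inf.mpr ⟨?_, ?_⟩
    · have h3 : ⁅(⟨x, hRH hx⟩ : ↥H), ⟨y, hYH hy⟩⁆ =
          ⟨x, hRH hx⟩ * (⟨y, hYH hy⟩ * (⟨x, hRH hx⟩ : ↥H)⁻¹ * (⟨y, hYH hy⟩ : ↥H)⁻¹) := by
        rw [commutatorElement_def]; group
      rw [h3]
      exact Subgroup.mul_mem _ hx' (hR'n.conj_mem _ (Subgroup.inv_mem _ hx') _)
    · rw [commutatorElement_def]
      exact Subgroup.mul_mem _
        ((inferInstance : (pPrimeCore r ↥H).Normal).conj_mem _ hy' _) (Subgroup.inv_mem _ hy')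
  rw [hinf, Subgroup.mem_bot] at hc
  have hc' := commutatorElement_eq_one_iff_mul_comm.mp hc
  exact congrArg Subtype.val hc'

/-- **Bender–Glauberman 4.20(a).**  In a solvable group of odd order in which every `O_q(G)` has
rank at most two, the commutator subgroup lies in the Fitting subgroup. -/
theorem commutator_le_fittingSubgroup_of_rank2 [Finite G] [Group.IsSolvable G]
    (hodd : Odd (Nat.card G)) (hr : ∀ (q : ℕ) [Fact q.Prime], PRankLE q 2 ↥(pCore q G)) :
    commutator G ≤ fittingSubgroup G := by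
  have hFeq : fittingSubgroup G = ⨆ p : Nat.Primes, pCore (p : ℕ) G :=
    Cfsg.Agent.Helper22.fittingSubgroup_eq_iSup_pCore G
  have key : ∀ (q : ℕ) [Fact q.Prime], commutator G ⊓
      (⨅ (r : Nat.Primes) (_ : (r : ℕ) ≠ q), centralizer (pCore (r : ℕ) G : Set G)) ≤
        fittingSubgroup G := by
    intro q _
    have hq : q.Prime := Fact.out
    set C : Subgroup G := ⨅ (r : Nat.Primes) (_ : (r : ℕ) ≠ q),
      centralizer (pCore (r : ℕ) G : Set G) with hC
    set X : Subgroup G := commutator G ⊓ C with hX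
    have hCn : C.Normal :=
      Subgroup.normal_iInf_normal (fun r => Subgroup.normal_iInf_normal (fun _ => inferInstance))
    have hXn : X.Normal := inferInstance
    have hXnil : Group.IsNilpotent ↥X := by
      apply Group.of_quotient_center_nilpotent
      have hcard : ∀ t : ℕ, t.Prime → t ∣ Nat.card (↥X ⧸ center ↥X) → t = q := by
        intro t ht hdvd
        by_contra hne
        haveI : Fact t.Prime := ⟨ht⟩
        let T : Sylow t ↥X := default
        have hT₀p : IsPGroup t ((T : Subgroup ↥X).map X.subtype) := T.2.map _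
        have hT₀X : (T : Subgroup ↥X).map X.subtype ≤ X := Subgroup.map_subtype_le _
        have hT₀cop : (Nat.card ((T : Subgroup ↥X).map X.subtype)).Coprime q := by
          obtain ⟨n, hn⟩ := IsPGroup.iff_card.mp hT₀p
          rw [hn]
          exact ((Nat.coprime_primes ht hq).mpr hne).pow_left n
        have h1 : (T : Subgroup ↥X).map X.subtype ≤ centralizer (pCore q G : Set G) :=
          le_centralizer_pCore_of_le_commutator hodd q (hr q) (hT₀X.trans inf_le_left) hT₀cop
        have h2 : ∀ r : Nat.Primes,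
            (T : Subgroup ↥X).map X.subtype ≤ centralizer (pCore (r : ℕ) G : Set G) := by
          intro r
          by_cases hrq : (r : ℕ) = q
          · rw [hrq]; exact h1
          · exact (hT₀X.trans inf_le_right).trans (iInf₂_le r hrq)
        have h3 : (T : Subgroup ↥X).map X.subtype ≤ centralizer (fittingSubgroup G : Set G) := by
          rw [Subgroup.le_centralizer_iff, hFeq]
          exact iSup_le (fun r => Subgroup.le_centralizer_iff.mp (h2 r))
        have h4 : (T : Subgroup ↥X).map X.subtype ≤ fittingSubgroup G :=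
          h3.trans Cfsg.Agent.Helper22.centralizer_fittingSubgroup_le_of_isSolvable
        have h5 : (T : Subgroup ↥X).map X.subtype ≤ pCore t G :=
          le_pCore_of_le_fittingSubgroup t h4 hT₀p
        have h6 : X ≤ centralizer (pCore t G : Set G) :=
          inf_le_right.trans (iInf₂_le (⟨t, ht⟩ : Nat.Primes) hne)
        have h7 : (T : Subgroup ↥X) ≤ center ↥X := by
          intro z hz
          rw [Subgroup.mem_center_iff]
          intro g
          have hz' : (z : G) ∈ pCore t G := h5 ⟨z, hz, rfl⟩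
          have := Subgroup.mem_centralizer_iff.mp (h6 g.2) (z : G) hz'
          exact Subtype.ext this.symm
        have h8 : ¬ t ∣ (center ↥X).index := fun hd =>
          T.not_dvd_index (hd.trans (Subgroup.index_dvd_of_le h7))
        exact h8 (by rwa [Subgroup.index_eq_card])
      have hpow := Nat.eq_prime_pow_of_unique_prime_dvd
        (Nat.card_pos (α := ↥X ⧸ center ↥X)).ne' (fun {d} hd hdvd => hcard d hd hdvd)
      exact (IsPGroup.of_card hpow).isNilpotent
    exact le_sSup ⟨hXn, hXnil⟩
  have htop : (fittingSubgroup G).subgroupOf (commutator G) = ⊤ := by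
    apply Cfsg.Agent.Helper22.eq_top_of_forall_sylow_le
    intro q _ Q z hz
    have hq : q.Prime := Fact.out
    rw [Subgroup.mem_subgroupOf]
    have hQ₀p : IsPGroup q ((Q : Subgroup ↥(commutator G)).map (commutator G).subtype) :=
      Q.2.map _
    have hQ₀K : (Q : Subgroup ↥(commutator G)).map (commutator G).subtype ≤ commutator G :=
      Subgroup.map_subtype_le _
    have h1 : (Q : Subgroup ↥(commutator G)).map (commutator G).subtype ≤
        ⨅ (r : Nat.Primes) (_ : (r : ℕ) ≠ q), centralizer (pCore (r : ℕ) G : Set G) := by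
      refine le_iInf₂ (fun r hrq => ?_)
      haveI : Fact (r : ℕ).Prime := ⟨r.2⟩
      have hcop : (Nat.card ((Q : Subgroup ↥(commutator G)).map
          (commutator G).subtype)).Coprime r := by
        obtain ⟨n, hn⟩ := IsPGroup.iff_card.mp hQ₀p
        rw [hn]
        exact ((Nat.coprime_primes hq r.2).mpr (Ne.symm hrq)).pow_left n
      exact le_centralizer_pCore_of_le_commutator hodd r (hr r) hQ₀K hcop
    exact key q (Subgroup.mem_inf.mpr ⟨hQ₀K ⟨z, hz, rfl⟩, h1 ⟨z, hz, rfl⟩⟩)
  exact Subgroup.subgroupOf_eq_top.mp htop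

end Cfsg.Agent.Helper23
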