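/-
CALL BG83 (helper25, row S1383), piece CASEB1 (double by helper23): `bg83_case_B_struct`.
From S1448: `P = R₁ R₂` with `R₁` nonabelian of order `p³`, `R₂` cyclic, commuting elementwise,
`Ω₁(R₂) = R₁'`.  Then `P' = R₁'` has order `p`, `Z(P) = R₂` is cyclic, and `|P| = p² |R₂|`
(the multiplication `R₁ × R₂ → P` is a surjective homomorphism with kernel `≃ R₁ ∩ R₂ = R₁'`).
-/
import Cfsg.Statements.S1383
import Cfsg.Agent.S1448
import Cfsg.Agent.Helper23.BG83SL2H

set_option autoImplicit false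

namespace Cfsg.Agent.Helper23

open Cfsg Subgroup

universe u

variable {G : Type u} [Group G] [Finite G]

omit [Finite G] in
/-- Central factors drop out of a commutator. -/
theorem bg83h_comm_central {x y z z' : G} (hzy : z * y = y * z) (hzz' : z * z' = z' * z)
    (hxz' : x * z' = z' * x) :
    x * z * (y * z') * (x * z)⁻¹ * (y * z')⁻¹ = x * y * x⁻¹ * y⁻¹ := by
  have hz'x : z' * x⁻¹ = x⁻¹ * z' := by
    calc z' * x⁻¹ = x⁻¹ * (x * z') * x⁻¹ := by group
      _ = x⁻¹ * (z' * x) * x⁻¹ := by rw [hxz']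
      _ = x⁻¹ * z' := by group
  calc x * z * (y * z') * (x * z)⁻¹ * (y * z')⁻¹
      = x * (z * y) * z' * z⁻¹ * x⁻¹ * z'⁻¹ * y⁻¹ := by group
    _ = x * (y * z) * z' * z⁻¹ * x⁻¹ * z'⁻¹ * y⁻¹ := by rw [hzy]
    _ = x * y * (z * z') * z⁻¹ * x⁻¹ * z'⁻¹ * y⁻¹ := by group
    _ = x * y * (z' * z) * z⁻¹ * x⁻¹ * z'⁻¹ * y⁻¹ := by rw [hzz']
    _ = x * y * (z' * x⁻¹) * z'⁻¹ * y⁻¹ := by group
    _ = x * y * (x⁻¹ * z') * z'⁻¹ * y⁻¹ := by rw [hz'x]
    _ = x * y * x⁻¹ * y⁻¹ := by group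

/-- CASEB1. -/
theorem bg83_case_B_struct (p : ℕ) [Fact p.Prime] (hp2 : p ≠ 2) (P K : Subgroup G)
    (hP : IsPGroup p P) (hr : PRankLE p 2 ↥P) (hKP : K ≤ normalizer (P : Set G))
    (hodd : Odd (Nat.card K)) (hcop : (Nat.card K).Coprime p) (hPK : ⁅P, K⁆ = P)
    (hnab : ⁅P, P⁆ ≠ ⊥) :
    Nat.card ↥⁅P, P⁆ = p ∧ IsCyclic ↥(P ⊓ centralizer (P : Set G)) ∧
      Nat.card ↥P = p ^ 2 * Nat.card ↥(P ⊓ centralizer (P : Set G)) := by
  have hp : p.Prime := Fact.out
  have hP1 : P ≠ ⊥ := by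
    rintro rfl
    exact hnab (Subgroup.commutator_bot_left _)
  have hPnc : ¬ IsMulCommutative ↥P := by
    intro h
    apply hnab
    rw [Subgroup.commutator_eq_bot_iff_le_centralizer]
    intro a ha
    rw [Subgroup.mem_centralizer_iff]
    intro b hb
    exact congrArg Subtype.val (h.is_comm.comm ⟨b, hb⟩ ⟨a, ha⟩)
  obtain ⟨-, hS⟩ := Cfsg.Agent.S1448.result p hp2 P K hP hP1 hr hKP hcop hodd hPK
  rcases hS with hS | ⟨R₁, R₂, hsup, hcomm, hR₁nc, hR₁c, -, hR₂cyc, hcl⟩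
  · exact absurd hS hPnc
  have hR₁P : R₁ ≤ P := hsup ▸ le_sup_left
  have hR₂P : R₂ ≤ P := hsup ▸ le_sup_right
  have hR₁nab : ⁅R₁, R₁⁆ ≠ ⊥ := by
    intro h
    apply hR₁nc
    rw [Subgroup.commutator_eq_bot_iff_le_centralizer] at h
    refine ⟨⟨fun a b => ?_⟩⟩
    have h1 := h b.2
    rw [Subgroup.mem_centralizer_iff] at h1
    exact Subtype.ext (h1 a a.2)
  obtain ⟨hD1, hDc, hDcen, hDeq⟩ := bg83h_p3 p R₁ hR₁c hR₁nab
  have hDR₂ : ⁅R₁, R₁⁆ ≤ R₂ := by
    rw [← hcl, Subgroup.closure_le]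
    intro x hx
    exact hx.1
  have hR₂comm : ∀ a ∈ R₂, ∀ b ∈ R₂, a * b = b * a := by
    intro a ha b hb
    have h := (IsCyclic.isMulCommutative (α := ↥R₂)).is_comm.comm ⟨a, ha⟩ ⟨b, hb⟩
    exact congrArg Subtype.val h
  -- the multiplication homomorphism
  let f : ↥R₁ × ↥R₂ →* G := R₁.subtype.noncommCoprod R₂.subtype (fun a b => hcomm a a.2 b b.2)
  have hfapp : ∀ x : ↥R₁ × ↥R₂, f x = (x.1 : G) * (x.2 : G) := fun x => rfl
  have hrange : f.range = P := by
    have h1 := MonoidHom.noncommCoprod_range R₁.subtype R₂.subtype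
      (fun a b => hcomm a a.2 b b.2)
    rw [Subgroup.range_subtype, Subgroup.range_subtype, hsup] at h1
    exact h1
  have hprod : ∀ z ∈ P, ∃ a ∈ R₁, ∃ b ∈ R₂, z = a * b := by
    intro z hz
    rw [← hrange] at hz
    obtain ⟨x, rfl⟩ := hz
    exact ⟨x.1, x.1.2, x.2, x.2.2, hfapp x⟩
  -- `R₂` is central in `P`
  have hR₂Z : R₂ ≤ centralizer (P : Set G) := by
    intro b hb
    rw [Subgroup.mem_centralizer_iff]
    intro h hh
    obtain ⟨a, ha, c, hc, rfl⟩ := hprod h hh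
    calc a * c * b = a * (c * b) := by group
      _ = a * (b * c) := by rw [hR₂comm c hc b hb]
      _ = (a * b) * c := by group
      _ = (b * a) * c := by rw [hcomm a ha b hb]
      _ = b * (a * c) := by group
  -- the derived subgroup
  have hcP : ⁅P, P⁆ = ⁅R₁, R₁⁆ := by
    apply le_antisymm
    · rw [Subgroup.commutator_le]
      intro x hx y hy
      obtain ⟨a, ha, b, hb, rfl⟩ := hprod x hx
      obtain ⟨a', ha', b', hb', rfl⟩ := hprod y hy
      have hkey : a * b * (a' * b') * (a * b)⁻¹ * (a' * b')⁻¹ = a * a' * a⁻¹ * a'⁻¹ :=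
        bg83h_comm_central (hcomm a' ha' b hb).symm (hR₂comm b hb b' hb')
          (hcomm a ha b' hb')
      rw [commutatorElement_def, hkey]
      exact Subgroup.commutator_mem_commutator ha ha'
    · exact Subgroup.commutator_mono hR₁P hR₁P
  -- the centre
  have hZ : P ⊓ centralizer (P : Set G) = R₂ := by
    apply le_antisymm
    · intro z hz
      obtain ⟨hzP, hzC⟩ := Subgroup.mem_inf.mp hz
      obtain ⟨a, ha, b, hb, rfl⟩ := hprod z hzP
      have haC : a ∈ centralizer (P : Set G) := by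
        have h1 : a = (a * b) * b⁻¹ := by group
        rw [h1]
        exact (centralizer (P : Set G)).mul_mem hzC
          ((centralizer (P : Set G)).inv_mem (hR₂Z hb))
      have haD : a ∈ ⁅R₁, R₁⁆ := by
        apply hDeq a ha
        intro c hc
        rw [Subgroup.mem_centralizer_iff] at haC
        exact (haC c (hR₁P hc)).symm
      exact R₂.mul_mem (hDR₂ haD) hb
    · exact le_inf hR₂P hR₂Z
  -- `R₁ ∩ R₂ = R₁'`
  have hinter : ∀ c : G, c ∈ R₁ → c ∈ R₂ → c ∈ ⁅R₁, R₁⁆ := by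
    intro c hc1 hc2
    apply hDeq c hc1
    intro d hd
    exact (hcomm d hd c hc2).symm
  -- the kernel of `f`
  have hker : Nat.card ↥f.ker = p := by
    rw [← hDc]
    let g : ↥⁅R₁, R₁⁆ → ↥f.ker := fun c =>
      ⟨(⟨(c : G), hD1 c.2⟩, ⟨(c : G)⁻¹, R₂.inv_mem (hDR₂ c.2)⟩), by
        rw [MonoidHom.mem_ker, hfapp]
        exact mul_inv_cancel (c : G)⟩
    have hg : Function.Bijective g := by
      constructor
      · intro c c' h
        have h1 := congrArg (fun x : ↥f.ker => ((x : ↥R₁ × ↥R₂).1 : G)) h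
        exact Subtype.ext h1
      · rintro ⟨⟨a, b⟩, hab⟩
        rw [MonoidHom.mem_ker, hfapp] at hab
        have hab' : (a : G) * (b : G) = 1 := hab
        have hb : (b : G) = (a : G)⁻¹ := (eq_inv_of_mul_eq_one_right hab')
        have haR₂ : (a : G) ∈ R₂ := by
          have h2 : (a : G) = (b : G)⁻¹ := by rw [hb, inv_inv]
          rw [h2]; exact R₂.inv_mem b.2
        refine ⟨⟨(a : G), hinter a a.2 haR₂⟩, ?_⟩
        apply Subtype.ext
        apply Prod.ext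
        · exact Subtype.ext rfl
        · exact Subtype.ext hb.symm
    exact (Nat.card_congr (Equiv.ofBijective g hg)).symm
  have hcardP : Nat.card ↥P = p ^ 2 * Nat.card ↥R₂ := by
    have h1 := Subgroup.card_eq_card_quotient_mul_card_subgroup f.ker
    have h2 : Nat.card ((↥R₁ × ↥R₂) ⧸ f.ker) = Nat.card ↥P := by
      rw [← hrange]
      exact Nat.card_congr (QuotientGroup.quotientKerEquivRange f).toEquiv
    rw [h2, hker, Nat.card_prod, hR₁c] at h1
    have h3 : p ^ 3 * Nat.card ↥R₂ = (p ^ 2 * Nat.card ↥R₂) * p := by ring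
    rw [h3] at h1
    exact (Nat.eq_of_mul_eq_mul_right hp.pos h1).symm
  refine ⟨?_, ?_, ?_⟩
  · rw [hcP]; exact hDc
  · rw [hZ]; exact hR₂cyc
  · rw [hZ]; exact hcardP

end Cfsg.Agent.Helper23
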