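/-
helper23: conjugates of `p`-components, normality of the `p`-layer, and the extended 2-layer
`L*_{2'}(X)` of `Def_Balance`.  Everything lives in `Cfsg.Agent.Helper23`.
-/
import Cfsg.Prelude.Def_Balance
import Cfsg.Agent.Helper34.PComp7

set_option autoImplicit false

namespace Cfsg.Agent.Helper23

open Cfsg Cfsg.Agent.Helper34
open scoped commutatorElement

section Conj

variable {X : Type*} [Group X]

/-- Membership in a conjugate `g H g⁻¹`, written as `H.map (MulAut.conj g)`. -/
theorem mem_map_conj {H : Subgroup X} {g x : X} :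
    x ∈ H.map (MulAut.conj g).toMonoidHom ↔ g⁻¹ * x * g ∈ H := by
  constructor
  · rintro ⟨h, hh, rfl⟩
    simpa [mul_assoc] using hh
  · intro h
    exact ⟨g⁻¹ * x * g, h, by simp [mul_assoc]⟩

theorem map_conj_le_of_mem_normalizer {H : Subgroup X} {g : X}
    (hg : g ∈ Subgroup.normalizer (H : Set X)) : H.map (MulAut.conj g).toMonoidHom ≤ H := by
  rintro _ ⟨h, hh, rfl⟩
  exact (Subgroup.mem_normalizer_iff.mp hg h).mp hh

theorem map_conj_eq_of_mem_normalizer {H : Subgroup X} {g : X}
    (hg : g ∈ Subgroup.normalizer (H : Set X)) : H.map (MulAut.conj g).toMonoidHom = H := by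
  apply le_antisymm (map_conj_le_of_mem_normalizer hg)
  intro x hx
  rw [mem_map_conj]
  have := (Subgroup.mem_normalizer_iff.mp (inv_mem hg) x).mp hx
  simpa using this

theorem map_conj_eq_of_normal (H : Subgroup X) [hH : H.Normal] (g : X) :
    H.map (MulAut.conj g).toMonoidHom = H := by
  apply map_conj_eq_of_mem_normalizer
  rw [Subgroup.normalizer_eq_top]
  exact Subgroup.mem_top g

/-- A subgroup all of whose elements conjugate `H` into itself normalizes `H`. -/
theorem le_normalizer_of_map_conj_le {S H : Subgroup X}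
    (h : ∀ g ∈ S, H.map (MulAut.conj g).toMonoidHom ≤ H) : S ≤ Subgroup.normalizer (H : Set X) := by
  rw [Subgroup.le_normalizer_iff]
  intro g hg k hk
  exact h g hg ⟨k, hk, rfl⟩

/-- The centralizer of a conjugate is the conjugate of the centralizer. -/
theorem centralizer_map_conj (H : Subgroup X) (g : X) :
    Subgroup.centralizer ((H.map (MulAut.conj g).toMonoidHom : Subgroup X) : Set X) =
      (Subgroup.centralizer (H : Set X)).map (MulAut.conj g).toMonoidHom := by
  ext x
  rw [mem_map_conj, Subgroup.mem_centralizer_iff, Subgroup.mem_centralizer_iff]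
  constructor
  · intro h k hk
    have h1 := h (g * k * g⁻¹) ⟨k, hk, rfl⟩
    have h2 := congrArg (fun z => g⁻¹ * z * g) h1
    simpa [mul_assoc] using h2
  · intro h y hy
    have hy' : g⁻¹ * y * g ∈ H := mem_map_conj.mp hy
    have h1 := h _ hy'
    have h2 := congrArg (fun z => g * z * g⁻¹) h1
    simpa [mul_assoc] using h2

/-- The `p'`-core of a conjugate is the conjugate of the `p'`-core. -/
theorem coreIn_map_conj (p : ℕ) (H : Subgroup X) (g : X) :
    coreIn p (H.map (MulAut.conj g).toMonoidHom) =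
      (coreIn p H).map (MulAut.conj g).toMonoidHom := by
  have h1 := map_equiv_pPrimeCore p
    (H.equivMapOfInjective (MulAut.conj g).toMonoidHom (MulAut.conj g).injective)
  show (pPrimeCore p ↥(H.map (MulAut.conj g).toMonoidHom)).map
      (H.map (MulAut.conj g).toMonoidHom).subtype =
    ((pPrimeCore p ↥H).map H.subtype).map (MulAut.conj g).toMonoidHom
  rw [← h1, Subgroup.map_map, Subgroup.map_map]
  congr 1

/-- Conjugation commutes with passing to a quotient. -/
theorem map_conj_map_mk (O : Subgroup X) [O.Normal] (H : Subgroup X) (g : X) :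
    (H.map (MulAut.conj g).toMonoidHom).map (QuotientGroup.mk' O) =
      (H.map (QuotientGroup.mk' O)).map (MulAut.conj (QuotientGroup.mk' O g)).toMonoidHom := by
  rw [Subgroup.map_map, Subgroup.map_map]
  congr 1

theorem map_conj_map_conj_inv (H : Subgroup X) (g : X) :
    (H.map (MulAut.conj g).toMonoidHom).map (MulAut.conj g⁻¹).toMonoidHom = H := by
  ext x
  rw [mem_map_conj, mem_map_conj]
  simp [mul_assoc]

theorem map_conj_inv_map_conj (H : Subgroup X) (g : X) :
    (H.map (MulAut.conj g⁻¹).toMonoidHom).map (MulAut.conj g).toMonoidHom = H := by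
  have := map_conj_map_conj_inv H g⁻¹
  rwa [inv_inv] at this

end Conj

section PComp

variable {X : Type*} [Group X] {p : ℕ}

/-- A conjugate of a `p`-component is a `p`-component. -/
theorem isPComponent_conj {K : Subgroup X} (hK : IsPComponent p K) (g : X) :
    IsPComponent p (K.map (MulAut.conj g).toMonoidHom) := by
  refine ⟨hK.1.map (MulAut.conj g).surjective, ?_, ?_⟩
  · rw [map_conj_map_mk]
    exact component_map_equiv (MulAut.conj _) hK.2.1
  · intro H hH hHK hmap
    have h1 : H.map (MulAut.conj g⁻¹).toMonoidHom = K := by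
      apply hK.2.2 _ (hH.map (MulAut.conj g⁻¹).surjective)
      · have := Subgroup.map_mono (f := (MulAut.conj g⁻¹).toMonoidHom) hHK
        rwa [map_conj_map_conj_inv] at this
      · rw [map_conj_map_mk, hmap, map_conj_map_mk, map_inv, map_conj_map_conj_inv]
    rw [← h1, map_conj_inv_map_conj]

/-- The `p`-layer is a normal subgroup. -/
theorem pLayer_normal (p : ℕ) (X : Type*) [Group X] : (pLayer p X).Normal := by
  constructor
  intro n hn g
  have h1 : (pLayer p X).map (MulAut.conj g).toMonoidHom ≤ pLayer p X := by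
    rw [Subgroup.map_le_iff_le_comap]
    apply sSup_le
    intro K hK
    rw [← Subgroup.map_le_iff_le_comap]
    exact le_sSup (isPComponent_conj hK g)
  exact h1 ⟨n, hn, rfl⟩

end PComp

section Sylow

variable {X : Type*} [Group X] {p : ℕ}

/-- `O_p(G)` is a `p`-group. -/
theorem isPGroup_pCore (p : ℕ) (G : Type*) [Group G] : IsPGroup p ↥(pCore p G) :=
  Sylow.sSup_of_normal _ (fun _ h => h.2) (fun _ h => h.1)

theorem pPrimeCore_le_pPrimePCore (p : ℕ) (G : Type*) [Group G] :
    pPrimeCore p G ≤ pPrimePCore p G := by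
  intro c hc
  show QuotientGroup.mk' (pPrimeCore p G) c ∈ pCore p (G ⧸ pPrimeCore p G)
  have : QuotientGroup.mk' (pPrimeCore p G) c = 1 := (QuotientGroup.eq_one_iff c).mpr hc
  rw [this]
  exact one_mem _

theorem pPrimePCore_normal (p : ℕ) (G : Type*) [Group G] : (pPrimePCore p G).Normal :=
  (pCore_normal p (G ⧸ pPrimeCore p G)).comap _

/-- The image in `X` of a Sylow `p`-subgroup of the subgroup `N` is a `p`-group. -/
theorem isPGroup_sylow_map {N : Subgroup X} (T : Sylow p ↥N) :
    IsPGroup p ↥((T : Subgroup ↥N).map N.subtype) :=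
  T.2.map N.subtype

/-- Maximality of a Sylow `p`-subgroup of `N`, seen in `X`. -/
theorem le_sylow_map_of_le {N : Subgroup X} (T : Sylow p ↥N) {Q : Subgroup X}
    (hQ : IsPGroup p ↥Q) (hQN : Q ≤ N) (hTQ : (T : Subgroup ↥N).map N.subtype ≤ Q) :
    Q ≤ (T : Subgroup ↥N).map N.subtype := by
  have h1 : Q.subgroupOf N = (T : Subgroup ↥N) := by
    apply T.is_maximal' hQ.comap_subtype
    intro t ht
    show (t : X) ∈ Q
    exact hTQ ⟨t, ht, rfl⟩
  intro q hq
  refine ⟨⟨q, hQN hq⟩, ?_, rfl⟩
  have h2 : (⟨q, hQN hq⟩ : ↥N) ∈ Q.subgroupOf N := by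
    rw [Subgroup.mem_subgroupOf]
    exact hq
  rw [h1] at h2
  exact h2

theorem mem_sylow_smul_iff {G : Type*} [Group G] (T : Sylow p G) (m y : G) :
    y ∈ ((m • T : Sylow p G) : Subgroup G) ↔ m⁻¹ * y * m ∈ (T : Subgroup G) := by
  rw [Sylow.coe_subgroup_smul, Subgroup.mem_pointwise_smul_iff_inv_smul_mem]
  simp [MulAut.smul_def]

/-- The image in `X` of a conjugate Sylow subgroup of `N`. -/
theorem sylow_smul_map {N : Subgroup X} (T : Sylow p ↥N) (m : ↥N) :
    ((m • T : Sylow p ↥N) : Subgroup ↥N).map N.subtype =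
      ((T : Subgroup ↥N).map N.subtype).map (MulAut.conj (m : X)).toMonoidHom := by
  ext x
  rw [mem_map_conj]
  constructor
  · rintro ⟨y, hy, rfl⟩
    exact ⟨m⁻¹ * y * m, (mem_sylow_smul_iff T m y).mp hy, by simp⟩
  · rintro ⟨y, hy, hyx⟩
    have h1 : m⁻¹ * (m * y * m⁻¹) * m = y := by group
    refine ⟨m * y * m⁻¹, (mem_sylow_smul_iff T m _).mpr (by rw [h1]; exact hy), ?_⟩
    have h2 : (y : X) = (m : X)⁻¹ * x * m := hyx
    show (m : X) * (y : X) * (m : X)⁻¹ = x
    rw [h2]
    group

/-- A `p`-subgroup of `N` is conjugate under `N` into the image of a given Sylow `p`-subgroup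
of `N`. -/
theorem exists_conj_le_sylow_map [Finite X] (hp : p.Prime) {N : Subgroup X} (T : Sylow p ↥N)
    {Q : Subgroup X} (hQ : IsPGroup p ↥Q) (hQN : Q ≤ N) :
    ∃ n ∈ N, Q.map (MulAut.conj n).toMonoidHom ≤ (T : Subgroup ↥N).map N.subtype := by
  have := Fact.mk hp
  obtain ⟨T₁, hT₁⟩ := (hQ.comap_subtype (K := N)).exists_le_sylow
  obtain ⟨m, hm⟩ := MulAction.exists_smul_eq ↥N T₁ T
  refine ⟨m, m.2, ?_⟩
  rw [← hm, sylow_smul_map]
  apply Subgroup.map_mono
  intro q hq
  exact ⟨⟨q, hQN hq⟩, hT₁ (show ((⟨q, hQN hq⟩ : ↥N) : X) ∈ Q from hq), rfl⟩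

end Sylow

section Main

variable {X : Type*} [Group X] [Finite X] {p : ℕ}

omit [Finite X] in
theorem coreIn_centralizer_map_conj (p : ℕ) (P : Subgroup X) (g : X) :
    coreIn p (Subgroup.centralizer ((P.map (MulAut.conj g).toMonoidHom : Subgroup X) : Set X)) =
      (coreIn p (Subgroup.centralizer (P : Set X))).map (MulAut.conj g).toMonoidHom := by
  rw [centralizer_map_conj, coreIn_map_conj]

omit [Finite X] in
theorem map_conj_coreIn_centralizer_of_mem_normalizer (p : ℕ) {P : Subgroup X} {g : X}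
    (hg : g ∈ Subgroup.normalizer (P : Set X)) :
    (coreIn p (Subgroup.centralizer (P : Set X))).map (MulAut.conj g).toMonoidHom =
      coreIn p (Subgroup.centralizer (P : Set X)) := by
  have h := coreIn_centralizer_map_conj p P g
  rw [map_conj_eq_of_mem_normalizer hg] at h
  exact h.symm

/-- `O_{p',p}(X)` normalizes each `p`-component. -/
theorem pPrimePCore_le_normalizer_pc (hp : p.Prime) {K : Subgroup X} (hK : IsPComponent p K) :
    pPrimePCore p X ≤ Subgroup.normalizer (K : Set X) := by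
  have := Fact.mk hp
  rw [Subgroup.le_normalizer_iff]
  intro c hc
  apply pc_conj_mem_of_centralizes hp hK c
  have hc' : QuotientGroup.mk' (pPrimeCore p X) c ∈ pCore p (X ⧸ pPrimeCore p X) := hc
  rcases component_le_or_commutator_eq_bot hK.2.1 (pCore p (X ⧸ pPrimeCore p X)) with h | h
  · exfalso
    have hpg : IsPGroup p ↥(K.map (QuotientGroup.mk' (pPrimeCore p X))) :=
      (isPGroup_pCore p _).to_le h
    have : Group.IsNilpotent ↥(K.map (QuotientGroup.mk' (pPrimeCore p X))) := hpg.isNilpotent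
    have := qs_isPerfect hK.2.1.2
    have := qs_nontrivial hK.2.1.2
    exact (Group.IsSolvable.commutator_lt_top_of_nontrivial
      ↥(K.map (QuotientGroup.mk' (pPrimeCore p X)))).ne Group.IsPerfect.commutator_eq_top
  · rw [Subgroup.commutator_eq_bot_iff_le_centralizer] at h
    intro k hk
    exact Subgroup.mem_centralizer_iff.mp (h ⟨k, hk, rfl⟩) _ hc'

/-- `L_{p'}(X) O_{p',p}(X)` normalizes each `p`-component. -/
theorem pLayer_sup_pPrimePCore_le_normalizer_pc (hp : p.Prime) {K : Subgroup X}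
    (hK : IsPComponent p K) :
    pLayer p X ⊔ pPrimePCore p X ≤ Subgroup.normalizer (K : Set X) :=
  sup_le (pLayer_le_normalizer_pc hp hK) (pPrimePCore_le_normalizer_pc hp hK)

/-- In a finite perfect group of order divisible by `p`, the centre has index divisible
by `p` (transfer into the centre). -/
theorem dvd_index_center_of_isPerfect (hp : p.Prime) (Q : Type*) [Group Q] [Finite Q]
    [Group.IsPerfect Q] (hQ : p ∣ Nat.card Q) : p ∣ (Subgroup.center Q).index := by
  have := Fact.mk hp
  obtain ⟨g, hg⟩ := exists_prime_orderOf_dvd_card' p hQ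
  have hφ : ∀ a b : Q, MonoidHom.transferCenterPow Q ⁅a, b⁆ = 1 := by
    intro a b
    rw [commutatorElement_def]
    simp only [map_mul, map_inv]
    apply Subtype.ext
    simp only [Subgroup.coe_mul, Subgroup.coe_inv, Subgroup.coe_one]
    have := (Subgroup.mem_center_iff.mp (MonoidHom.transferCenterPow Q a).2)
      (MonoidHom.transferCenterPow Q b : Q)
    rw [← this]
    group
  have h0 : commutator Q ≤ (MonoidHom.transferCenterPow Q).ker := by
    rw [commutator_eq_closure, Subgroup.closure_le]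
    rintro _ ⟨a, b, rfl⟩
    exact hφ a b
  have h1 : MonoidHom.transferCenterPow Q g = 1 := by
    rw [← MonoidHom.mem_ker]
    apply h0
    rw [Group.IsPerfect.commutator_eq_top]
    exact Subgroup.mem_top g
  have h2 : g ^ (Subgroup.center Q).index = 1 := by
    have h3 := MonoidHom.transferCenterPow_apply g
    rw [h1] at h3
    exact h3.symm
  rw [← hg]
  exact orderOf_dvd_of_pow_eq_one h2

/-- Some element of `K ∩ T`, `T` a Sylow `p`-subgroup of `L_{p'}(X) O_{p',p}(X)`, acts
nontrivially on the image of the `p`-component `K` modulo the `p'`-core. -/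
theorem exists_mem_pc_sylow_not_central (hp : p.Prime) {K : Subgroup X} (hK : IsPComponent p K)
    (T : Sylow p ↥(pLayer p X ⊔ pPrimePCore p X)) :
    ∃ s ∈ K, s ∈ (T : Subgroup ↥(pLayer p X ⊔ pPrimePCore p X)).map
        (pLayer p X ⊔ pPrimePCore p X).subtype ∧
      ∃ k ∈ K, QuotientGroup.mk' (pPrimeCore p X) s * QuotientGroup.mk' (pPrimeCore p X) k ≠
        QuotientGroup.mk' (pPrimeCore p X) k * QuotientGroup.mk' (pPrimeCore p X) s := by
  have := Fact.mk hp
  by_contra hcon
  push Not at hcon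
  have hKN : K ≤ pLayer p X ⊔ pPrimePCore p X := (pc_le_pLayer hK).trans le_sup_left
  have hNK := pLayer_sup_pPrimePCore_le_normalizer_pc hp hK
  obtain ⟨P⟩ := (inferInstance : Nonempty (Sylow p ↥K))
  obtain ⟨n, hnN, hn⟩ := exists_conj_le_sylow_map hp T (isPGroup_sylow_map P)
    ((Subgroup.map_subtype_le _).trans hKN)
  have hcent : ∀ x : ↥K, x ∈ (P : Subgroup ↥K) → ∀ k ∈ K,
      QuotientGroup.mk' (pPrimeCore p X) (x : X) * QuotientGroup.mk' (pPrimeCore p X) k =
        QuotientGroup.mk' (pPrimeCore p X) k * QuotientGroup.mk' (pPrimeCore p X) (x : X) := by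
    intro x hx k hk
    have hnK := Subgroup.mem_normalizer_iff.mp (hNK hnN)
    have h1 : n * (x : X) * n⁻¹ ∈ K := (hnK _).mp x.2
    have h2 : n * (x : X) * n⁻¹ ∈ (T : Subgroup ↥(pLayer p X ⊔ pPrimePCore p X)).map
        (pLayer p X ⊔ pPrimePCore p X).subtype := hn ⟨(x : X), ⟨x, hx, rfl⟩, rfl⟩
    have h3 : n * k * n⁻¹ ∈ K := (hnK _).mp hk
    have h4 := hcon _ h1 h2 _ h3
    simp only [map_mul, map_inv] at h4
    have h5 := congrArg (fun z => (QuotientGroup.mk' (pPrimeCore p X) n)⁻¹ * z *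
      QuotientGroup.mk' (pPrimeCore p X) n) h4
    simpa [mul_assoc] using h5
  have hfs : Function.Surjective ((QuotientGroup.mk' (pPrimeCore p X)).subgroupMap K) :=
    MonoidHom.subgroupMap_surjective _ K
  have hle : (P : Subgroup ↥K).map ((QuotientGroup.mk' (pPrimeCore p X)).subgroupMap K) ≤
      Subgroup.center ↥(K.map (QuotientGroup.mk' (pPrimeCore p X))) := by
    rintro _ ⟨x, hx, rfl⟩
    rw [Subgroup.mem_center_iff]
    rintro ⟨_, k, hk, rfl⟩
    apply Subtype.ext
    exact (hcent x hx k hk).symm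
  have := qs_isPerfect hK.2.1.2
  have h1 : p ∣ (Subgroup.center ↥(K.map (QuotientGroup.mk' (pPrimeCore p X)))).index :=
    dvd_index_center_of_isPerfect hp _ (pc_dvd_card_image hp hK)
  have h2 : (Subgroup.center ↥(K.map (QuotientGroup.mk' (pPrimeCore p X)))).index ∣
      (P : Subgroup ↥K).index :=
    (Subgroup.index_dvd_of_le hle).trans (Subgroup.index_map_dvd _ hfs)
  exact P.not_dvd_index (h1.trans h2)

/-- The centralizer of a Sylow `p`-subgroup of `L_{p'}(X) O_{p',p}(X)` normalizes each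
`p`-component. -/
theorem centralizer_sylow_le_normalizer_pc (hp : p.Prime) {K : Subgroup X}
    (hK : IsPComponent p K) (T : Sylow p ↥(pLayer p X ⊔ pPrimePCore p X)) :
    Subgroup.centralizer (((T : Subgroup ↥(pLayer p X ⊔ pPrimePCore p X)).map
      (pLayer p X ⊔ pPrimePCore p X).subtype : Subgroup X) : Set X) ≤
      Subgroup.normalizer (K : Set X) := by
  obtain ⟨s, hsK, hsT, k, hk, hne⟩ := exists_mem_pc_sylow_not_central hp hK T
  apply le_normalizer_of_map_conj_le
  intro d hd
  by_contra hcon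
  have hJ := isPComponent_conj hK d
  have hKJ : K ≠ K.map (MulAut.conj d).toMonoidHom := fun h => hcon h.ge
  have hsJ : s ∈ K.map (MulAut.conj d).toMonoidHom := by
    rw [mem_map_conj]
    have h1 : s * d = d * s := Subgroup.mem_centralizer_iff.mp hd s hsT
    have h2 : d⁻¹ * s * d = s := by rw [mul_assoc, h1, ← mul_assoc, inv_mul_cancel, one_mul]
    rw [h2]
    exact hsK
  exact hne (pc_map_commute hp hK hJ hKJ s hsJ k hk)

/-- The extended 2-layer normalizes each 2-component. -/
theorem extendedTwoLayer_le_normalizer_pc {K : Subgroup X} (hK : IsPComponent 2 K) :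
    extendedTwoLayer X ≤ Subgroup.normalizer (K : Set X) := by
  unfold extendedTwoLayer
  refine sup_le (sup_le (pLayer_le_normalizer_pc Nat.prime_two hK) ?_) (iSup_le fun T => ?_)
  · exact (pPrimeCore_le_pPrimePCore 2 X).trans (pPrimePCore_le_normalizer_pc Nat.prime_two hK)
  · exact (Subgroup.map_subtype_le _).trans
      (centralizer_sylow_le_normalizer_pc Nat.prime_two hK T)

/-- `O_{p',p}(X) ≤ O_{p'}(X) T` for a Sylow `p`-subgroup `T` of `L_{p'}(X) O_{p',p}(X)`. -/
theorem pPrimePCore_le_core_sup_sylow (hp : p.Prime)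
    (T : Sylow p ↥(pLayer p X ⊔ pPrimePCore p X)) :
    pPrimePCore p X ≤ pPrimeCore p X ⊔
      (T : Subgroup ↥(pLayer p X ⊔ pPrimePCore p X)).map
        (pLayer p X ⊔ pPrimePCore p X).subtype := by
  have := Fact.mk hp
  have hfs : Function.Surjective ((QuotientGroup.mk' (pPrimeCore p X)).subgroupMap
      (pLayer p X ⊔ pPrimePCore p X)) := MonoidHom.subgroupMap_surjective _ _
  have hPb : IsPGroup p ↥((pCore p (X ⧸ pPrimeCore p X)).subgroupOf
      ((pLayer p X ⊔ pPrimePCore p X).map (QuotientGroup.mk' (pPrimeCore p X)))) :=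
    (isPGroup_pCore p _).comap_subtype
  have hle := hPb.le_sylow_of_normal (T.mapSurjective hfs)
  intro r hr
  have hrN : r ∈ pLayer p X ⊔ pPrimePCore p X :=
    (le_sup_right : pPrimePCore p X ≤ pLayer p X ⊔ pPrimePCore p X) hr
  have h1 : (⟨QuotientGroup.mk' (pPrimeCore p X) r, ⟨r, hrN, rfl⟩⟩ :
      ↥((pLayer p X ⊔ pPrimePCore p X).map (QuotientGroup.mk' (pPrimeCore p X)))) ∈
      (pCore p (X ⧸ pPrimeCore p X)).subgroupOf
        ((pLayer p X ⊔ pPrimePCore p X).map (QuotientGroup.mk' (pPrimeCore p X))) := by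
    rw [Subgroup.mem_subgroupOf]
    exact hr
  have h2 := hle h1
  rw [Sylow.coe_mapSurjective] at h2
  obtain ⟨t, ht, htr⟩ := h2
  have h3 : QuotientGroup.mk' (pPrimeCore p X) (t : X) = QuotientGroup.mk' (pPrimeCore p X) r :=
    congrArg Subtype.val htr
  have h4 : (t : X)⁻¹ * r ∈ pPrimeCore p X := by
    apply (QuotientGroup.eq_one_iff _).mp
    show QuotientGroup.mk' (pPrimeCore p X) ((t : X)⁻¹ * r) = 1
    rw [map_mul, map_inv, h3, inv_mul_cancel]
  have h5 : r = (t : X) * ((t : X)⁻¹ * r) := by group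
  rw [h5]
  exact Subgroup.mul_mem _ (Subgroup.mem_sup_right ⟨t, ht, rfl⟩) (Subgroup.mem_sup_left h4)

omit [Finite X] in
/-- The normalizer of `P` fixes `L_{p'}(X) O_{p'}(X) O_{p'}(C_X(P))` under conjugation. -/
theorem map_conj_layer_core_coreIn_centralizer (p : ℕ) {P : Subgroup X} {g : X}
    (hg : g ∈ Subgroup.normalizer (P : Set X)) :
    (pLayer p X ⊔ pPrimeCore p X ⊔ coreIn p (Subgroup.centralizer (P : Set X))).map
        (MulAut.conj g).toMonoidHom =
      pLayer p X ⊔ pPrimeCore p X ⊔ coreIn p (Subgroup.centralizer (P : Set X)) := by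
  have := pLayer_normal p X
  rw [Subgroup.map_sup, Subgroup.map_sup, map_conj_eq_of_normal, map_conj_eq_of_normal,
    map_conj_coreIn_centralizer_of_mem_normalizer p hg]

omit [Finite X] in
theorem map_conj_coreIn_centralizer_sup_core (p : ℕ) {P : Subgroup X} {g : X}
    (hg : g ∈ Subgroup.normalizer (P : Set X)) :
    (coreIn p (Subgroup.centralizer (P : Set X)) ⊔ pPrimeCore p X).map
        (MulAut.conj g).toMonoidHom =
      coreIn p (Subgroup.centralizer (P : Set X)) ⊔ pPrimeCore p X := by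
  rw [Subgroup.map_sup, map_conj_eq_of_normal (pPrimeCore p X),
    map_conj_coreIn_centralizer_of_mem_normalizer p hg]

/-- `L_{p'}(X) O_{p',p}(X)` normalizes `L_{p'}(X) O_{p'}(X) O_{p'}(C_X(T))`. -/
theorem layer_sup_le_normalizer_extLayer (hp : p.Prime)
    (T : Sylow p ↥(pLayer p X ⊔ pPrimePCore p X)) :
    pLayer p X ⊔ pPrimePCore p X ≤ Subgroup.normalizer
      ((pLayer p X ⊔ pPrimeCore p X ⊔ coreIn p (Subgroup.centralizer
        (((T : Subgroup ↥(pLayer p X ⊔ pPrimePCore p X)).map
          (pLayer p X ⊔ pPrimePCore p X).subtype : Subgroup X) : Set X)) : Subgroup X) : Set X) := by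
  have hT : Subgroup.normalizer (((T : Subgroup ↥(pLayer p X ⊔ pPrimePCore p X)).map
      (pLayer p X ⊔ pPrimePCore p X).subtype : Subgroup X) : Set X) ≤ Subgroup.normalizer
      ((pLayer p X ⊔ pPrimeCore p X ⊔ coreIn p (Subgroup.centralizer
        (((T : Subgroup ↥(pLayer p X ⊔ pPrimePCore p X)).map
          (pLayer p X ⊔ pPrimePCore p X).subtype : Subgroup X) : Set X)) : Subgroup X) : Set X) :=
    le_normalizer_of_map_conj_le
      (fun g hg => (map_conj_layer_core_coreIn_centralizer p hg).le)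
  refine sup_le ((le_sup_left.trans le_sup_left).trans Subgroup.le_normalizer) ?_
  refine (pPrimePCore_le_core_sup_sylow hp T).trans (sup_le ?_ ?_)
  · exact (le_sup_right.trans le_sup_left).trans Subgroup.le_normalizer
  · exact Subgroup.le_normalizer.trans hT

/-- `L*_{2'}(X) = L_{2'}(X) O(X) O(C_X(T))` for each Sylow 2-subgroup `T` of
`L_{2'}(X) O_{2',2}(X)`. -/
theorem extendedTwoLayer_eq (T : Sylow 2 ↥(pLayer 2 X ⊔ pPrimePCore 2 X)) :
    extendedTwoLayer X = pLayer 2 X ⊔ pPrimeCore 2 X ⊔ coreIn 2 (Subgroup.centralizer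
        (((T : Subgroup ↥(pLayer 2 X ⊔ pPrimePCore 2 X)).map
          (pLayer 2 X ⊔ pPrimePCore 2 X).subtype : Subgroup X) : Set X)) := by
  have := Fact.mk Nat.prime_two
  apply le_antisymm
  · refine sup_le le_sup_left (iSup_le fun T₁ => ?_)
    obtain ⟨m, rfl⟩ := MulAction.exists_smul_eq ↥(pLayer 2 X ⊔ pPrimePCore 2 X) T T₁
    show coreIn 2 (Subgroup.centralizer
        ((((m • T : Sylow 2 ↥(pLayer 2 X ⊔ pPrimePCore 2 X)) :
          Subgroup ↥(pLayer 2 X ⊔ pPrimePCore 2 X)).map
          (pLayer 2 X ⊔ pPrimePCore 2 X).subtype : Subgroup X) : Set X)) ≤ _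
    rw [sylow_smul_map, coreIn_centralizer_map_conj]
    have h1 := map_conj_eq_of_mem_normalizer
      (layer_sup_le_normalizer_extLayer Nat.prime_two T m.2)
    calc (coreIn 2 (Subgroup.centralizer
        (((T : Subgroup ↥(pLayer 2 X ⊔ pPrimePCore 2 X)).map
          (pLayer 2 X ⊔ pPrimePCore 2 X).subtype : Subgroup X) : Set X))).map
          (MulAut.conj (m : X)).toMonoidHom
        ≤ (pLayer 2 X ⊔ pPrimeCore 2 X ⊔ coreIn 2 (Subgroup.centralizer
        (((T : Subgroup ↥(pLayer 2 X ⊔ pPrimePCore 2 X)).map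
          (pLayer 2 X ⊔ pPrimePCore 2 X).subtype : Subgroup X) : Set X))).map
          (MulAut.conj (m : X)).toMonoidHom := Subgroup.map_mono le_sup_right
      _ = _ := h1
  · exact sup_le_sup_left (le_iSup (fun T₁ : Sylow 2 ↥(pLayer 2 X ⊔ pPrimePCore 2 X) =>
      coreIn 2 (Subgroup.centralizer
        (((T₁ : Subgroup ↥(pLayer 2 X ⊔ pPrimePCore 2 X)).map
          (pLayer 2 X ⊔ pPrimePCore 2 X).subtype : Subgroup X) : Set X))) T) _

omit [Finite X] in
/-- A Sylow `p`-subgroup `S` of `X` containing the Sylow `p`-subgroup `T` of the normal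
subgroup `N` normalizes `T`. -/
theorem sylow_le_normalizer_sylow_map {N : Subgroup X} [hN : N.Normal] (T : Sylow p ↥N)
    (S : Sylow p X) (hTS : (T : Subgroup ↥N).map N.subtype ≤ (S : Subgroup X)) :
    (S : Subgroup X) ≤ Subgroup.normalizer (((T : Subgroup ↥N).map N.subtype : Subgroup X) : Set X) := by
  apply le_normalizer_of_map_conj_le
  intro g hg
  have h1 : (T : Subgroup ↥N).map N.subtype ≤ (S : Subgroup X) ⊓ N :=
    le_inf hTS (Subgroup.map_subtype_le _)
  have h2 := le_sylow_map_of_le T (S.2.to_le inf_le_left) inf_le_right h1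
  refine le_trans ?_ h2
  rintro _ ⟨t, ht, rfl⟩
  refine Subgroup.mem_inf.mpr ⟨?_, ?_⟩
  · exact Subgroup.mul_mem _ (Subgroup.mul_mem _ hg (hTS ht)) (Subgroup.inv_mem _ hg)
  · exact hN.conj_mem t (Subgroup.map_subtype_le _ ht) g

/-- `L*_{2'}(X) = L_{2'}(X) F` with `F` of odd order normalized by a Sylow 2-subgroup. -/
theorem exists_odd_complement_extendedTwoLayer (X : Type*) [Group X] [Finite X] :
    ∃ F : Subgroup X, Odd (Nat.card ↥F) ∧
      (∃ S : Sylow 2 X, (S : Subgroup X) ≤ Subgroup.normalizer (F : Set X)) ∧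
      extendedTwoLayer X = pLayer 2 X ⊔ F := by
  have := Fact.mk Nat.prime_two
  have hLn := pLayer_normal 2 X
  have hRn := pPrimePCore_normal 2 X
  obtain ⟨T⟩ := (inferInstance : Nonempty (Sylow 2 ↥(pLayer 2 X ⊔ pPrimePCore 2 X)))
  refine ⟨coreIn 2 (Subgroup.centralizer
        (((T : Subgroup ↥(pLayer 2 X ⊔ pPrimePCore 2 X)).map
          (pLayer 2 X ⊔ pPrimePCore 2 X).subtype : Subgroup X) : Set X)) ⊔ pPrimeCore 2 X,
    ?_, ?_, ?_⟩
  · apply Nat.Coprime.odd_of_right
    exact Nat.Coprime.coprime_dvd_left (card_sup_dvd_mul _ _)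
      (Nat.Coprime.mul_left (card_coreIn_coprime 2 _) (card_pPrimeCore_coprime 2 X))
  · obtain ⟨S, hS⟩ := (isPGroup_sylow_map T).exists_le_sylow
    refine ⟨S, (sylow_le_normalizer_sylow_map T S hS).trans ?_⟩
    exact le_normalizer_of_map_conj_le
      (fun g hg => (map_conj_coreIn_centralizer_sup_core 2 hg).le)
  · rw [extendedTwoLayer_eq T, sup_assoc, sup_comm (pPrimeCore 2 X)]

end Main

end Cfsg.Agent.Helper23
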