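/-
helper23: Bender–Glauberman Appendix B (the Puig subgroup) for solvable groups of odd order.
Uses helper24's `p`-stability theorem `mk_mem_pCore_of_quadratic` and Hall–Higman 1.2.3.
Everything lives in `Cfsg.Agent.Helper23`.
-/
import Cfsg.Agent.Helper24.HallHigman
import Cfsg.Agent.Helper22.Fitting

set_option autoImplicit false

namespace Cfsg.Agent.Helper23

open Cfsg Subgroup
open scoped commutatorElement

universe u

section B1

variable {G : Type u} [Group G] [Finite G] [Group.IsSolvable G]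

/-- An element of an abelian subgroup `B` normalized by the normal `p`-subgroup `P` of a solvable
group of odd order has image in `O_p(G / C_G(P))`. -/
theorem mk_mem_pCore_of_mem_normalized (hodd : Odd (Nat.card G)) (p : ℕ) [Fact p.Prime]
    (P : Subgroup G) [P.Normal] (hP : IsPGroup p P) {B : Subgroup G} (hBc : IsMulCommutative B)
    (hPB : P ≤ normalizer (B : Set G)) {b : G} (hb : b ∈ B) :
    QuotientGroup.mk' (centralizer (P : Set G)) b ∈ pCore p (G ⧸ centralizer (P : Set G)) := by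
  apply Helper24.mk_mem_pCore_of_quadratic hodd p P hP (centralizer (P : Set G))
  · intro x hx
    rw [Subgroup.mem_centralizer_iff]
    exact hx
  · intro x hx
    have h1 : x * b * x⁻¹ ∈ B := (Subgroup.mem_normalizer_iff.mp (hPB hx) b).mp hb
    have h2 : ⁅x, b⁆ ∈ B := by
      rw [commutatorElement_def]
      exact B.mul_mem h1 (B.inv_mem hb)
    exact congrArg Subtype.val (hBc.is_comm.comm ⟨b, hb⟩ ⟨⁅x, b⁆, h2⟩)

/-- If `O_{p'}(G) = 1` and the normal `p`-subgroup `P` contains `O_p(G) ∩ C_G(P)`, then `C_G(P)`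
is a `p`-group. -/
theorem isPGroup_centralizer_of (p : ℕ) [Fact p.Prime] (P : Subgroup G) [P.Normal]
    (hO : pPrimeCore p G = ⊥) (hCP : pCore p G ⊓ centralizer (P : Set G) ≤ P) :
    IsPGroup p (centralizer (P : Set G)) := by
  obtain ⟨C, hC⟩ : ∃ C : Subgroup G, C = centralizer (P : Set G) := ⟨_, rfl⟩
  rw [← hC]
  have hCn : C.Normal := by rw [hC]; infer_instance
  have hCs := hCn.isSubnormal
  have h1 : pPrimeCore p ↥C = ⊥ := by
    have h2 := Helper22.pPrimeCore_map_subtype_le p hCs
    rw [hO, le_bot_iff, Subgroup.map_eq_bot_iff_of_injective _ (Subgroup.subtype_injective _)] at h2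
    exact h2
  have hcore : ∀ D : Subgroup ↥C, D.Normal → (Nat.card D).Coprime p → D = ⊥ := by
    intro D hDn hD
    rw [eq_bot_iff, ← h1]
    exact le_sSup ⟨hDn, hD⟩
  have h3 := Helper24.centralizer_pCore_le (G := ↥C) p hcore
  have h4 := Helper22.pCore_map_subtype_le p hCs
  have h5 : ∀ c : ↥C, c ∈ pCore p ↥C := by
    intro c
    apply h3
    rw [Subgroup.mem_centralizer_iff]
    intro y hy
    have hyP : (y : G) ∈ P := hCP ⟨h4 ⟨y, hy, rfl⟩, by rw [← hC]; exact y.2⟩
    have hc : (c : G) ∈ centralizer (P : Set G) := by rw [← hC]; exact c.2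
    exact Subtype.ext (Subgroup.mem_centralizer_iff.mp hc _ hyP)
  have h6 := Helper22.pCore_isPGroup p ↥C
  intro c
  obtain ⟨k, hk⟩ := h6 ⟨c, h5 c⟩
  exact ⟨k, by simpa using congrArg Subtype.val hk⟩

omit [Finite G] [Group.IsSolvable G] in
/-- If `C` is a normal `p`-subgroup, the preimage of `O_p(G / C)` lies in `O_p(G)`. -/
theorem comap_pCore_quotient_le (p : ℕ) [Fact p.Prime] (C : Subgroup G) [C.Normal]
    (hC : IsPGroup p C) :
    (pCore p (G ⧸ C)).comap (QuotientGroup.mk' C) ≤ pCore p G := by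
  have hn : ((pCore p (G ⧸ C)).comap (QuotientGroup.mk' C)).Normal := by
    have hch := Helper22.pCore_characteristic p (G ⧸ C)
    have : (pCore p (G ⧸ C)).Normal := inferInstance
    infer_instance
  apply Helper22.le_pCore_of_isSubnormal p hn.isSubnormal
  rintro ⟨m, hm⟩
  obtain ⟨k, hk⟩ := Helper22.pCore_isPGroup p (G ⧸ C) ⟨QuotientGroup.mk' C m, Subgroup.mem_comap.mp hm⟩
  have h2 : m ^ p ^ k ∈ C := by
    have h3 := congrArg Subtype.val hk
    rw [Subgroup.coe_pow, Subgroup.coe_one] at h3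
    rw [← QuotientGroup.eq_one_iff]
    exact h3
  obtain ⟨j, hj⟩ := hC ⟨m ^ p ^ k, h2⟩
  refine ⟨k + j, Subtype.ext ?_⟩
  have h4 := congrArg Subtype.val hj
  rw [Subgroup.coe_pow, Subgroup.coe_one] at h4 ⊢
  rw [pow_add, pow_mul]
  exact h4

/-- **Bender–Glauberman B.1**. -/
theorem bg_b1 (hodd : Odd (Nat.card G)) (p : ℕ) [Fact p.Prime] (P : Subgroup G) [P.Normal]
    (hP : IsPGroup p P) (S : Set (Subgroup G))
    (hS : ∀ B ∈ S, IsMulCommutative B ∧ P ≤ normalizer (B : Set G)) :
    (sSup S).map (QuotientGroup.mk' (centralizer (P : Set G))) ≤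
        pCore p (G ⧸ centralizer (P : Set G)) ∧
      (pPrimeCore p G = ⊥ → pCore p G ⊓ centralizer (P : Set G) ≤ P → sSup S ≤ pCore p G) := by
  have h1 : sSup S ≤ (pCore p (G ⧸ centralizer (P : Set G))).comap
      (QuotientGroup.mk' (centralizer (P : Set G))) := by
    apply sSup_le
    intro B hB b hb
    rw [Subgroup.mem_comap]
    exact mk_mem_pCore_of_mem_normalized hodd p P hP (hS B hB).1 (hS B hB).2 hb
  refine ⟨Subgroup.map_le_iff_le_comap.mpr h1, ?_⟩
  intro hO hCP
  exact h1.trans (comap_pCore_quotient_le p _ (isPGroup_centralizer_of p P hO hCP))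

end B1

end Cfsg.Agent.Helper23
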