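/-
helper23: the Puig series of a subgroup `H` of an ambient group, computed inside the ambient
group (`stepIn`, `seqIn`, `lowerIn`, `upperIn`), its elementary properties, invariance under
homomorphisms injective on `H`, the comparison with the definitions of the prelude, and Puig's
lemma: if `L(S) ≤ R ≤ S` then `L(R) = L(S)` and `L_*(R) = L_*(S)`.
Everything lives in `Cfsg.Agent.Helper23`.
-/
import Mathlib
import Cfsg.Prelude.Def_OddOrderLocal

set_option autoImplicit false

namespace Cfsg.Agent.Helper23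

open Cfsg Subgroup

universe u v

section Defs

variable {G : Type u} [Group G]

/-- `L_H(X)` inside the ambient group: generated by the abelian subgroups of `H` normalized by
`X`. -/
def stepIn (H X : Subgroup G) : Subgroup G :=
  sSup {A : Subgroup G | A ≤ H ∧ IsMulCommutative A ∧ X ≤ normalizer (A : Set G)}

/-- The Puig series of `H` inside the ambient group. -/
def seqIn (H : Subgroup G) : ℕ → Subgroup G
  | 0 => ⊥
  | n + 1 => stepIn H (seqIn H n)

/-- `L_*(H)` inside the ambient group. -/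
def lowerIn (H : Subgroup G) : Subgroup G := ⨆ n : ℕ, seqIn H (2 * n)

/-- `L(H)` inside the ambient group. -/
def upperIn (H : Subgroup G) : Subgroup G := ⨅ n : ℕ, seqIn H (2 * n + 1)

/-- The centre of a subgroup, inside the ambient group. -/
def centerOf (M : Subgroup G) : Subgroup G := M ⊓ centralizer (M : Set G)

theorem le_stepIn {H X A : Subgroup G} (hA : A ≤ H) (hc : IsMulCommutative A)
    (hX : X ≤ normalizer (A : Set G)) : A ≤ stepIn H X := le_sSup ⟨hA, hc, hX⟩

theorem stepIn_le (H X : Subgroup G) : stepIn H X ≤ H := sSup_le (fun _ hA => hA.1)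

theorem stepIn_anti (H : Subgroup G) {X Y : Subgroup G} (h : X ≤ Y) : stepIn H Y ≤ stepIn H X :=
  sSup_le (fun _ hA => le_stepIn hA.1 hA.2.1 (h.trans hA.2.2))

theorem stepIn_mono {H H' : Subgroup G} (h : H ≤ H') (X : Subgroup G) :
    stepIn H X ≤ stepIn H' X :=
  sSup_le (fun _ hA => le_stepIn (hA.1.trans h) hA.2.1 hA.2.2)

theorem seqIn_succ (H : Subgroup G) (n : ℕ) : seqIn H (n + 1) = stepIn H (seqIn H n) := rfl

theorem seqIn_le (H : Subgroup G) (n : ℕ) : seqIn H n ≤ H := by
  cases n with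
  | zero => exact bot_le
  | succ n => exact stepIn_le H _

theorem le_stepIn_bot (H : Subgroup G) : H ≤ stepIn H ⊥ := by
  intro h hh
  have h1 : zpowers h ≤ stepIn H ⊥ := le_stepIn (zpowers_le.mpr hh) inferInstance bot_le
  exact h1 (mem_zpowers h)

theorem seqIn_chain (H : Subgroup G) (n : ℕ) :
    seqIn H (2 * n) ≤ seqIn H (2 * n + 2) ∧ seqIn H (2 * n + 3) ≤ seqIn H (2 * n + 1) := by
  induction n with
  | zero => exact ⟨bot_le, (seqIn_le H 3).trans (le_stepIn_bot H)⟩
  | succ n ih =>
    have h1 : seqIn H (2 * (n + 1)) ≤ seqIn H (2 * (n + 1) + 2) := stepIn_anti H ih.2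
    exact ⟨h1, stepIn_anti H h1⟩

theorem seqIn_even_mono (H : Subgroup G) : Monotone (fun n => seqIn H (2 * n)) :=
  monotone_nat_of_le_succ (fun n => (seqIn_chain H n).1)

theorem seqIn_odd_anti (H : Subgroup G) : Antitone (fun n => seqIn H (2 * n + 1)) :=
  antitone_nat_of_succ_le (fun n => (seqIn_chain H n).2)

theorem seqIn_even_le_odd_self (H : Subgroup G) (n : ℕ) :
    seqIn H (2 * n) ≤ seqIn H (2 * n + 1) := by
  induction n with
  | zero => exact bot_le
  | succ n ih =>
    have h1 : seqIn H (2 * (n + 1)) ≤ seqIn H (2 * n + 1) := stepIn_anti H ih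
    exact stepIn_anti H h1

theorem seqIn_even_le_odd (H : Subgroup G) (m n : ℕ) :
    seqIn H (2 * m) ≤ seqIn H (2 * n + 1) :=
  ((seqIn_even_mono H (le_max_left m n)).trans (seqIn_even_le_odd_self H _)).trans
    (seqIn_odd_anti H (le_max_right m n))

theorem lowerIn_le_upperIn (H : Subgroup G) : lowerIn H ≤ upperIn H :=
  iSup_le (fun m => le_iInf (fun n => seqIn_even_le_odd H m n))

theorem upperIn_le (H : Subgroup G) : upperIn H ≤ H :=
  (iInf_le (fun n => seqIn H (2 * n + 1)) 0).trans (seqIn_le H 1)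

theorem seqIn_even_le_lowerIn (H : Subgroup G) (n : ℕ) : seqIn H (2 * n) ≤ lowerIn H :=
  le_iSup (fun n => seqIn H (2 * n)) n

theorem upperIn_le_seqIn_odd (H : Subgroup G) (n : ℕ) : upperIn H ≤ seqIn H (2 * n + 1) :=
  iInf_le (fun n => seqIn H (2 * n + 1)) n

/-- The Puig series is eventually stationary. -/
theorem exists_stable [Finite G] (H : Subgroup G) :
    ∃ N : ℕ, ∀ n, N ≤ n → seqIn H (2 * n) = lowerIn H ∧ seqIn H (2 * n + 1) = upperIn H := by
  obtain ⟨N, hN⟩ := WellFoundedGT.monotone_chain_condition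
    (⟨fun n => seqIn H (2 * n), seqIn_even_mono H⟩ : ℕ →o Subgroup G)
  have hN' : ∀ m, N ≤ m → seqIn H (2 * N) = seqIn H (2 * m) := hN
  have hE : ∀ n, N ≤ n → seqIn H (2 * n) = lowerIn H := by
    intro n hn
    apply le_antisymm (seqIn_even_le_lowerIn H n)
    apply iSup_le
    intro m
    have h1 := seqIn_even_mono H (le_max_left m n)
    have h2 : seqIn H (2 * max m n) = seqIn H (2 * n) := by
      rw [← hN' (max m n) (hn.trans (le_max_right _ _)), hN' n hn]
    exact h1.trans h2.le
  refine ⟨N, fun n hn => ⟨hE n hn, ?_⟩⟩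
  apply le_antisymm ?_ (upperIn_le_seqIn_odd H n)
  apply le_iInf
  intro m
  rcases le_total m n with h | h
  · exact seqIn_odd_anti H h
  · have h3 : seqIn H (2 * m + 1) = seqIn H (2 * n + 1) := by
      rw [seqIn_succ, seqIn_succ, hE n hn, hE m (hn.trans h)]
    exact h3.ge

theorem stepIn_lowerIn [Finite G] (H : Subgroup G) : stepIn H (lowerIn H) = upperIn H := by
  obtain ⟨N, hN⟩ := exists_stable H
  rw [← (hN N le_rfl).1, ← (hN N le_rfl).2]
  rfl

theorem stepIn_upperIn [Finite G] (H : Subgroup G) : stepIn H (upperIn H) = lowerIn H := by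
  obtain ⟨N, hN⟩ := exists_stable H
  rw [← (hN N le_rfl).2, ← (hN (N + 1) (Nat.le_succ N)).1]
  rfl

theorem lowerIn_le (H : Subgroup G) : lowerIn H ≤ H :=
  (lowerIn_le_upperIn H).trans (upperIn_le H)

end Defs

section Map

variable {G : Type u} [Group G] {G' : Type v} [Group G'] (f : G →* G')

theorem map_stepIn {H X : Subgroup G} (hXH : X ≤ H)
    (hf : ∀ x ∈ H, ∀ y ∈ H, f x = f y → x = y) :
    (stepIn H X).map f = stepIn (H.map f) (X.map f) := by
  apply le_antisymm
  · rw [Subgroup.map_le_iff_le_comap]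
    apply sSup_le
    rintro A ⟨hAH, hAc, hXA⟩
    rw [← Subgroup.map_le_iff_le_comap]
    have := hAc
    exact le_stepIn (Subgroup.map_mono hAH) inferInstance
      ((Subgroup.map_mono hXA).trans (Subgroup.le_normalizer_map f))
  · apply sSup_le
    rintro B ⟨hBH, hBc, hXB⟩
    have hmap : (H ⊓ B.comap f).map f = B := by
      apply le_antisymm
      · rintro _ ⟨a, ha, rfl⟩
        exact (Subgroup.mem_inf.mp ha).2
      · intro b hb
        obtain ⟨h, hh, rfl⟩ := hBH hb
        exact ⟨h, Subgroup.mem_inf.mpr ⟨hh, hb⟩, rfl⟩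
    rw [← hmap]
    apply Subgroup.map_mono
    apply le_stepIn inf_le_left
    · constructor; constructor
      rintro ⟨a, ha⟩ ⟨b, hb⟩
      obtain ⟨ha1, ha2⟩ := Subgroup.mem_inf.mp ha
      obtain ⟨hb1, hb2⟩ := Subgroup.mem_inf.mp hb
      apply Subtype.ext
      apply hf _ (H.mul_mem ha1 hb1) _ (H.mul_mem hb1 ha1)
      rw [map_mul, map_mul]
      exact congrArg Subtype.val (hBc.is_comm.comm ⟨f a, ha2⟩ ⟨f b, hb2⟩)
    · intro x hx
      rw [Subgroup.mem_normalizer_iff]
      intro a
      have hfx : f x ∈ normalizer (B : Set G') := hXB (Subgroup.mem_map_of_mem f hx)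
      constructor
      · intro ha
        obtain ⟨ha1, ha2⟩ := Subgroup.mem_inf.mp ha
        refine Subgroup.mem_inf.mpr ⟨H.mul_mem (H.mul_mem (hXH hx) ha1) (H.inv_mem (hXH hx)), ?_⟩
        rw [Subgroup.mem_comap] at ha2 ⊢
        rw [map_mul, map_mul, map_inv]
        exact (Subgroup.mem_normalizer_iff.mp hfx (f a)).mp ha2
      · intro ha
        obtain ⟨ha1, ha2⟩ := Subgroup.mem_inf.mp ha
        refine Subgroup.mem_inf.mpr ⟨?_, ?_⟩
        · have h1 := H.mul_mem (H.mul_mem (H.inv_mem (hXH hx)) ha1) (hXH hx)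
          have h2 : x⁻¹ * (x * a * x⁻¹) * x = a := by group
          rwa [h2] at h1
        · rw [Subgroup.mem_comap] at ha2 ⊢
          rw [map_mul, map_mul, map_inv] at ha2
          exact (Subgroup.mem_normalizer_iff.mp hfx (f a)).mpr ha2

theorem map_seqIn {H : Subgroup G} (hf : ∀ x ∈ H, ∀ y ∈ H, f x = f y → x = y) (n : ℕ) :
    (seqIn H n).map f = seqIn (H.map f) n := by
  induction n with
  | zero => exact Subgroup.map_bot f
  | succ n ih =>
    rw [seqIn_succ, seqIn_succ, map_stepIn f (seqIn_le H n) hf, ih]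

theorem map_centerOf {H M : Subgroup G} (hM : M ≤ H)
    (hf : ∀ x ∈ H, ∀ y ∈ H, f x = f y → x = y) :
    (centerOf M).map f = centerOf (M.map f) := by
  apply le_antisymm
  · rintro _ ⟨x, hx, rfl⟩
    obtain ⟨hx1, hx2⟩ := Subgroup.mem_inf.mp hx
    refine Subgroup.mem_inf.mpr ⟨Subgroup.mem_map_of_mem f hx1, ?_⟩
    rw [Subgroup.mem_centralizer_iff]
    rintro _ ⟨m, hm, rfl⟩
    rw [← map_mul, ← map_mul, Subgroup.mem_centralizer_iff.mp hx2 m hm]
  · intro y hy
    obtain ⟨hy1, hc⟩ := Subgroup.mem_inf.mp hy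
    obtain ⟨x, hx, rfl⟩ := hy1
    refine ⟨x, Subgroup.mem_inf.mpr ⟨hx, ?_⟩, rfl⟩
    rw [Subgroup.mem_centralizer_iff]
    intro m hm
    apply hf _ (H.mul_mem (hM hm) (hM hx)) _ (H.mul_mem (hM hx) (hM hm))
    rw [map_mul, map_mul]
    exact Subgroup.mem_centralizer_iff.mp hc (f m) (Subgroup.mem_map_of_mem f hm)

theorem map_upperIn [Finite G] [Finite G'] {H : Subgroup G}
    (hf : ∀ x ∈ H, ∀ y ∈ H, f x = f y → x = y) :
    (upperIn H).map f = upperIn (H.map f) := by
  obtain ⟨N, hN⟩ := exists_stable H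
  obtain ⟨N', hN'⟩ := exists_stable (H.map f)
  rw [← (hN (max N N') (le_max_left _ _)).2, ← (hN' (max N N') (le_max_right _ _)).2,
    map_seqIn f hf]

theorem map_lowerIn [Finite G] [Finite G'] {H : Subgroup G}
    (hf : ∀ x ∈ H, ∀ y ∈ H, f x = f y → x = y) :
    (lowerIn H).map f = lowerIn (H.map f) := by
  obtain ⟨N, hN⟩ := exists_stable H
  obtain ⟨N', hN'⟩ := exists_stable (H.map f)
  rw [← (hN (max N N') (le_max_left _ _)).1, ← (hN' (max N N') (le_max_right _ _)).1,
    map_seqIn f hf]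

end Map

section Prelude

variable {G : Type u} [Group G]

theorem seqIn_top (G : Type u) [Group G] (n : ℕ) : seqIn (⊤ : Subgroup G) n = puigSeq G n := by
  induction n with
  | zero => rfl
  | succ n ih =>
    rw [seqIn_succ, ih]
    show stepIn ⊤ (puigSeq G n) = puigStep (puigSeq G n)
    unfold stepIn puigStep
    congr 1
    ext A
    simp

theorem map_puigSeq (H : Subgroup G) (n : ℕ) : (puigSeq ↥H n).map H.subtype = seqIn H n := by
  rw [← seqIn_top, map_seqIn H.subtype (fun x _ y _ h => Subtype.ext h),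
    ← MonoidHom.range_eq_map, Subgroup.range_subtype]

theorem map_puigLower (H : Subgroup G) : (puigLower ↥H).map H.subtype = lowerIn H := by
  unfold puigLower lowerIn
  rw [Subgroup.map_iSup]
  congr 1
  ext n
  rw [map_puigSeq]

theorem map_puigSubgroup (H : Subgroup G) : (puigSubgroup ↥H).map H.subtype = upperIn H := by
  unfold puigSubgroup upperIn
  rw [Subgroup.map_iInf _ H.subtype_injective]
  congr 1
  ext n
  rw [map_puigSeq]

theorem map_center_subtype (M : Subgroup G) : (center ↥M).map M.subtype = centerOf M := by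
  ext x
  constructor
  · rintro ⟨⟨y, hy⟩, hyc, rfl⟩
    refine Subgroup.mem_inf.mpr ⟨hy, ?_⟩
    rw [Subgroup.mem_centralizer_iff]
    intro m hm
    have h1 := Subgroup.mem_center_iff.mp hyc ⟨m, hm⟩
    exact congrArg Subtype.val h1
  · intro hx'
    obtain ⟨hx, hc⟩ := Subgroup.mem_inf.mp hx'
    refine ⟨⟨x, hx⟩, ?_, rfl⟩
    rw [SetLike.mem_coe, Subgroup.mem_center_iff]
    intro m
    exact Subtype.ext (Subgroup.mem_centralizer_iff.mp hc m m.2)

theorem map_center_puigSubgroup (H : Subgroup G) :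
    ((center ↥(puigSubgroup ↥H)).map (puigSubgroup ↥H).subtype).map H.subtype =
      centerOf (upperIn H) := by
  rw [map_center_subtype, map_centerOf H.subtype (le_top : puigSubgroup ↥H ≤ ⊤)
    (fun x _ y _ h => Subtype.ext h), map_puigSubgroup]

end Prelude

section PuigLemma

variable {G : Type u} [Group G] [Finite G]

/-- **Puig's lemma**: if `L(S) ≤ R ≤ S` then `L(R) = L(S)` and `L_*(R) = L_*(S)`. -/
theorem puig_eq_of_upperIn_le {R S : Subgroup G} (hRS : R ≤ S) (hL : upperIn S ≤ R) :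
    upperIn R = upperIn S ∧ lowerIn R = lowerIn S := by
  have hLs : lowerIn S ≤ R := (lowerIn_le_upperIn S).trans hL
  have ha : ∀ n : ℕ, seqIn S (2 * n) ≤ seqIn R (2 * n) ∧
      seqIn R (2 * n + 1) ≤ seqIn S (2 * n + 1) := by
    intro n
    induction n with
    | zero => exact ⟨le_rfl, stepIn_mono hRS ⊥⟩
    | succ n ih =>
      have h1 : seqIn S (2 * (n + 1)) ≤ seqIn R (2 * (n + 1)) := by
        show stepIn S (seqIn S (2 * n + 1)) ≤ stepIn R (seqIn R (2 * n + 1))
        apply sSup_le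
        rintro A ⟨hAS, hAc, hAn⟩
        have hA1 : A ≤ seqIn S (2 * (n + 1)) := le_stepIn hAS hAc hAn
        exact le_stepIn ((hA1.trans (seqIn_even_le_lowerIn S (n + 1))).trans hLs) hAc
          (ih.2.trans hAn)
      refine ⟨h1, ?_⟩
      show stepIn R (seqIn R (2 * (n + 1))) ≤ stepIn S (seqIn S (2 * (n + 1)))
      exact (stepIn_anti R h1).trans (stepIn_mono hRS _)
  have hb : ∀ n : ℕ, seqIn R (2 * n) ≤ lowerIn S ∧ upperIn S ≤ seqIn R (2 * n + 1) := by
    intro n
    induction n with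
    | zero => exact ⟨bot_le, hL.trans (le_stepIn_bot R)⟩
    | succ n ih =>
      have h1 : seqIn R (2 * (n + 1)) ≤ lowerIn S := by
        show stepIn R (seqIn R (2 * n + 1)) ≤ lowerIn S
        rw [← stepIn_upperIn S]
        exact (stepIn_anti R ih.2).trans (stepIn_mono hRS _)
      refine ⟨h1, ?_⟩
      show upperIn S ≤ stepIn R (seqIn R (2 * (n + 1)))
      rw [← stepIn_lowerIn S]
      apply sSup_le
      rintro A ⟨hAS, hAc, hAn⟩
      have hA1 : A ≤ upperIn S := by
        rw [← stepIn_lowerIn S]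
        exact le_stepIn hAS hAc hAn
      exact le_stepIn (hA1.trans hL) hAc (h1.trans hAn)
  constructor
  · apply le_antisymm
    · exact le_iInf (fun n => (iInf_le (fun n => seqIn R (2 * n + 1)) n).trans (ha n).2)
    · exact le_iInf (fun n => (hb n).2)
  · apply le_antisymm
    · exact iSup_le (fun n => (hb n).1)
    · exact iSup_le (fun n => (ha n).1.trans (seqIn_even_le_lowerIn R n))

end PuigLemma

end Cfsg.Agent.Helper23
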