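import Mathlib
import Cfsg.Prelude.Def_GeometricClasses
import Cfsg.Prelude.Def_Classical
import Cfsg.Agent.Helper43.S88OEDefs

set_option autoImplicit false

/-!
# Piece BLKRESTR of sub-CALL S88OE (helper43): the restriction of a block to an invariant
nondegenerate subspace is a block.
-/

namespace Cfsg.Agent.Helper23.S88OE

open Module Polynomial Cfsg Cfsg.Geo
open Cfsg.Agent.Helper43 Cfsg.Agent.Helper43.OrthEven Cfsg.Agent.Helper43.S88OE

section lin

variable {F : Type*} [Field F] {Va Vb : Type*} [AddCommGroup Va] [Module F Va] [AddCommGroup Vb]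
  [Module F Vb]

/-- `aeval` of a restricted endomorphism, evaluated in the ambient space. -/
theorem oe_aeval_restrict_apply (T : Module.End F Va) (U : Submodule F Va)
    (hmem : ∀ u ∈ U, T u ∈ U) (f : F[X]) (u : U) :
    ((aeval (T.restrict hmem) f u : U) : Va) = aeval T f (u : Va) := by
  induction f using Polynomial.induction_on with
  | C a => simp [Algebra.algebraMap_eq_smul_one]
  | add f g hf hg => simp [hf, hg]
  | monomial n a ih =>
    simp only [map_mul, aeval_C, aeval_X_pow, Module.End.mul_apply,
      Algebra.algebraMap_eq_smul_one, LinearMap.smul_apply, Module.End.one_apply,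
      Submodule.coe_smul]
    rw [Module.End.pow_restrict (n + 1) hmem]
    simp

/-- BLKRESTR [S, generic]: the restriction of a block to an invariant nondegenerate subspace is a
block. -/
theorem oe_blk_restr (r : ℕ) (Qa : QuadraticForm F Va) (T : Module.End F Va)
    (hT : ∀ v, Qa (T v) = Qa v) (hcyc : aeval T (cyclotomic r F) = 0) (U : Submodule F Va)
    (hU : U.map T ≤ U) (hnd : PolarNondeg (Qa.comp U.subtype)) :
    ∃ T' : Module.End F U, Blk r (Qa.comp U.subtype) T' := by
  have hmem : ∀ u ∈ U, T u ∈ U := fun u hu => hU ⟨u, hu, rfl⟩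
  refine ⟨T.restrict hmem, hnd, ?_, ?_⟩
  · intro v
    simp only [QuadraticMap.comp_apply, Submodule.subtype_apply, LinearMap.coe_restrict_apply]
    exact hT v
  · ext u
    rw [oe_aeval_restrict_apply T U hmem (cyclotomic r F) u, hcyc]
    simp

end lin

end Cfsg.Agent.Helper23.S88OE
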