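import Mathlib
import Cfsg.Prelude.Def_GeometricClasses
import Cfsg.Prelude.Def_Classical
import Cfsg.Agent.Helper43.S88OEDefs
import Cfsg.Agent.Helper23.S88OEPSTOP

set_option autoImplicit false

/-!
# Piece FLAG1 of sub-CALL S88OE (helper43): a nondegenerate space of dimension `i` has the flag of
length `1`.
-/

namespace Cfsg.Agent.Helper23.S88OE

open Module Polynomial Cfsg Cfsg.Geo
open Cfsg.Agent.Helper43 Cfsg.Agent.Helper43.OrthEven Cfsg.Agent.Helper43.S88OE

section lin

variable {F : Type*} [Field F] {Va Vb : Type*} [AddCommGroup Va] [Module F Va] [AddCommGroup Vb]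
  [Module F Vb]

/-- FLAG1 [S] (uses PSTOP): a nondegenerate space of dimension `i` has the flag of length `1`
(`s = 0`: `⊥`; `s = 1`: `⊤`, `finrank_top`). -/
theorem oe_flag_one [FiniteDimensional F Va] (Qa : QuadraticForm F Va) (T : Module.End F Va)
    (hnd : PolarNondeg Qa) (i : ℕ) (hdim : finrank F Va = i) : Flag Qa T i 1 := by
  intro s hs
  obtain ⟨h1, -, h3, -⟩ := oe_top_bot Qa
  interval_cases s
  · exact ⟨⊥, by simp, h3, by simp⟩
  · exact ⟨⊤, le_top, h1.mpr hnd, by simp [hdim]⟩

end lin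

end Cfsg.Agent.Helper23.S88OE
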