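import Mathlib
import Cfsg.Prelude.Def_GeometricClasses
import Cfsg.Prelude.Def_Classical
import Cfsg.Agent.Helper43.S88OEDefs

set_option autoImplicit false

/-!
# Piece ZBLK of sub-CALL S88OE (helper43): the zero block.
-/

namespace Cfsg.Agent.Helper23.S88OE

open Module Polynomial Cfsg Cfsg.Geo
open Cfsg.Agent.Helper43 Cfsg.Agent.Helper43.OrthEven Cfsg.Agent.Helper43.S88OE

universe u

section fin

variable {F : Type u} [Field F] [Fintype F]

/-- ZBLK [S]: the zero block. -/
theorem oe_zero_blk (r i : ℕ) :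
    ∃ (V : Type u) (_ : AddCommGroup V) (_ : Module F V) (_ : FiniteDimensional F V)
      (Q : QuadraticForm F V) (T : Module.End F V),
      Blk r Q T ∧ T.charpoly = 1 ∧ finrank F V = 0 ∧ Flag Q T i 0 := by
  refine ⟨PUnit.{u+1}, inferInstance, inferInstance, inferInstance, 0, 1, ⟨?_, ?_, ?_⟩, ?_, ?_, ?_⟩
  · intro v _
    exact Subsingleton.elim _ _
  · intro v
    rfl
  · ext v
  · have hfin : finrank F PUnit.{u+1} = 0 := Module.finrank_zero_of_subsingleton
    apply Polynomial.eq_one_of_monic_natDegree_zero (LinearMap.charpoly_monic _)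
    rw [LinearMap.charpoly_natDegree, hfin]
  · exact Module.finrank_zero_of_subsingleton
  · intro s hs
    have hs0 : s = 0 := Nat.le_zero.mp hs
    subst hs0
    refine ⟨⊥, by simp, ?_, by simp⟩
    intro v _
    exact Subsingleton.elim _ _

end fin

end Cfsg.Agent.Helper23.S88OE
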